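import Mathlib

/-!
Artin's theorem on alternative rings and the Artin–Zorn theorem in characteristic 2.
-/

set_option autoImplicit false

namespace Cfsg.Lib.Alt

variable {D : Type*} [NonAssocRing D]

/-- the associator -/
def asc (x y z : D) : D := x * y * z - x * (y * z)

/-- Kleinfeld's function -/
def kf (w x y z : D) : D := asc (w * x) y z - x * asc w y z - asc x y z * w

theorem teich (w x y z : D) :
    asc (w * x) y z - asc w (x * y) z + asc w x (y * z) = w * asc x y z + asc w x y * z := by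
  simp only [asc, mul_sub, sub_mul]; abel

structure IsAlt (D : Type*) [NonAssocRing D] : Prop where
  l : ∀ x y : D, x * x * y = x * (x * y)
  r : ∀ x y : D, y * x * x = y * (x * x)

namespace IsAlt

variable (h : IsAlt D)
include h

theorem s12 (x y z : D) : asc y x z = -asc x y z := by
  have := h.l (x + y) z
  simp only [mul_add, add_mul, h.l] at this
  simp only [asc]
  linear_combination (norm := abel) this

theorem s23 (x y z : D) : asc x z y = -asc x y z := by
  have := h.r (y + z) x
  simp only [mul_add, add_mul, h.r] at this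
  simp only [asc]
  linear_combination (norm := abel) this

theorem cyc (x y z : D) : asc y z x = asc x y z := by rw [h.s23 y x z, h.s12 x y z, neg_neg]

theorem kf_s (w x y z : D) : kf w x z y = -kf w x y z := by
  simp only [kf, h.s23 _ y z, mul_neg, neg_mul]; abel

theorem kf_cyc (w x y z : D) : kf z w x y = -kf w x y z := by
  have h1 := teich w x y z
  have h2 := teich x y z w
  rw [← h.cyc w (x * y) z, h.cyc (y * z) w x] at h1
  rw [← h.cyc x (y * z) w, h.cyc (z * w) x y] at h2
  rw [kf, kf, ← h.cyc z x y, ← h.cyc w y z]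
  linear_combination (norm := abel) h1 + h2

theorem a11 (x y : D) : asc x x y = 0 := sub_eq_zero.2 (h.l x y)

theorem a22 (x y : D) : asc y x x = 0 := sub_eq_zero.2 (h.r x y)

theorem asc_mul_self (x q r : D) : asc r (x * q) x = asc q x r * x := by
  have h1 : kf x q x r = 0 := by
    rw [← neg_eq_zero, ← h.kf_cyc, h.kf_s, neg_eq_zero, ← neg_eq_zero, ← h.kf_cyc, kf]
    simp [h.a22]
  rw [kf, h.a11] at h1
  rw [← h.cyc]
  linear_combination (norm := abel_nf) h1
  simp

theorem step {x p q r : D} (h1 : asc q x (p * r) = 0) (h2 : asc q x p = 0) (h3 : asc q x r = 0)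
    (h4 : asc p (x * q) r = 0) : asc (x * p) (x * q) r = 0 := by
  have e : kf x p (x * q) r = kf p r (x * q) x := by
    rw [h.kf_s x p r, ← h.kf_cyc x p r, ← neg_neg (kf _ x p r), ← h.kf_cyc, ← h.kf_cyc]
  rw [kf, kf, h.asc_mul_self, h.asc_mul_self, h.asc_mul_self, h1, h2, h3, h4, ← h.cyc x (x * q) r,
    h.s12 r (x * q) x, h.asc_mul_self, h3] at e
  simpa using e

end IsAlt

/-- right-normed words in two letters -/
def wd (c : Bool → D) (l : List Bool) : D := l.foldr (fun b y => c b * y) 1

theorem wd_append (c : Bool → D) {n : ℕ} (ih : ∀ l₁ l₂ l₃ : List Bool,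
    l₁.length + l₂.length + l₃.length ≤ n → asc (wd c l₁) (wd c l₂) (wd c l₃) = 0)
    (l₁ l₂ : List Bool) (hl : l₁.length + l₂.length ≤ n) : wd c l₁ * wd c l₂ = wd c (l₁ ++ l₂) := by
  induction l₁ with
  | nil => simp [wd]
  | cons b l hl' =>
    have := ih [b] l l₂ (by simp at hl ⊢; omega)
    rw [asc, sub_eq_zero, hl' (by simp at hl; omega)] at this
    simpa [wd] using this

theorem IsAlt.wd_asc (h : IsAlt D) (c : Bool → D) (n : ℕ) : ∀ l₁ l₂ l₃ : List Bool,
    l₁.length + l₂.length + l₃.length ≤ n → asc (wd c l₁) (wd c l₂) (wd c l₃) = 0 := by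
  induction n with
  | zero =>
    intro l₁ l₂ l₃ hl
    obtain rfl : l₁ = [] := List.length_eq_zero_iff.1 (by omega)
    simp [wd, asc]
  | succ n ih =>
    have key : ∀ (b : Bool) (p q r : List Bool), p.length + q.length + r.length + 2 ≤ n + 1 →
        asc (wd c (b :: p)) (wd c (b :: q)) (wd c r) = 0 := fun b p q r hl => by
      have e : c b = wd c [b] := by simp [wd]
      refine h.step (x := c b) (p := wd c p) (q := wd c q) ?_ ?_ ?_ (ih p (b :: q) r (by simp; omega))
      · rw [wd_append c ih p r (by omega), e]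
        exact ih _ _ _ (by simp; omega)
      · exact e ▸ ih _ _ _ (by simp; omega)
      · exact e ▸ ih _ _ _ (by simp; omega)
    rintro (_ | ⟨b₁, l₁⟩) (_ | ⟨b₂, l₂⟩) (_ | ⟨b₃, l₃⟩) hl
    any_goals simp [wd, asc]; done
    simp only [List.length_cons] at hl
    by_cases e₁ : b₁ = b₂
    · exact e₁ ▸ key b₁ _ _ _ (by simp; omega)
    by_cases e₂ : b₂ = b₃
    · rw [← h.cyc]
      exact e₂ ▸ key b₂ _ _ _ (by simp; omega)
    · obtain rfl : b₃ = b₁ := by revert e₁ e₂; cases b₁ <;> cases b₂ <;> cases b₃ <;> simp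
      rw [h.cyc]
      exact key b₃ _ _ _ (by simp; omega)

/-- Artin's theorem: two elements lie in an associative subring -/
theorem IsAlt.artin (h : IsAlt D) (a b : D) : ∃ B : Subring D, a ∈ B ∧ b ∈ B ∧
    ∀ x ∈ B, ∀ y ∈ B, ∀ z ∈ B, x * y * z = x * (y * z) := by
  let c : Bool → D := fun t => if t then a else b
  let A := AddSubgroup.closure (Set.range (wd c))
  have hw : ∀ l, wd c l ∈ A := fun l => AddSubgroup.subset_closure ⟨l, rfl⟩
  have hm : ∀ x ∈ A, ∀ y ∈ A, x * y ∈ A := fun x hx y hy => by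
    induction hx, hy using AddSubgroup.closure_induction₂ with
    | mem x y hx hy =>
      obtain ⟨l₁, rfl⟩ := hx
      obtain ⟨l₂, rfl⟩ := hy
      exact wd_append c (h.wd_asc c _) l₁ l₂ le_rfl ▸ hw _
    | zero_left => rw [zero_mul]; exact A.zero_mem
    | zero_right => rw [mul_zero]; exact A.zero_mem
    | add_left _ _ _ _ _ _ h1 h2 => rw [add_mul]; exact A.add_mem h1 h2
    | add_right _ _ _ _ _ _ h1 h2 => rw [mul_add]; exact A.add_mem h1 h2
    | neg_left _ _ _ _ h1 => rw [neg_mul]; exact A.neg_mem h1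
    | neg_right _ _ _ _ h1 => rw [mul_neg]; exact A.neg_mem h1
  refine ⟨{ A with one_mem' := hw [], mul_mem' := fun {x y} hx hy => hm x hx y hy },
    mul_one a ▸ hw [true], mul_one b ▸ hw [false], fun x hx y hy z hz => ?_⟩
  · induction hx, hy using AddSubgroup.closure_induction₂ with
    | mem x y hx hy =>
      obtain ⟨l₁, rfl⟩ := hx
      obtain ⟨l₂, rfl⟩ := hy
      induction hz using AddSubgroup.closure_induction with
      | mem z hz =>
        obtain ⟨l₃, rfl⟩ := hz
        exact sub_eq_zero.1 (h.wd_asc c _ l₁ l₂ l₃ le_rfl)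
      | zero => simp
      | add _ _ _ _ h1 h2 => simp [mul_add, h1, h2]
      | neg _ _ h1 => simp [h1]
    | zero_left => simp
    | zero_right => simp
    | add_left _ _ _ _ _ _ h1 h2 => simp [add_mul, h1, h2]
    | add_right _ _ _ _ _ _ h1 h2 => simp [mul_add, add_mul, h1, h2]
    | neg_left _ _ _ _ h1 => simp [h1]
    | neg_right _ _ _ _ h1 => simp [h1]

theorem IsAlt.mul_comm (h : IsAlt D) [Finite D] [NoZeroDivisors D] [Nontrivial D] (a b : D) :
    a * b = b * a := by
  obtain ⟨B, ha, hb, hB⟩ := h.artin a b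
  let _ : Ring B := { (inferInstance : NonAssocRing B) with
    mul_assoc := fun x y z => Subtype.ext (hB _ x.2 _ y.2 _ z.2) }
  have : NoZeroDivisors B := ⟨fun {x y} e => (mul_eq_zero.1 (congrArg Subtype.val e)).imp Subtype.ext Subtype.ext⟩
  have : Nontrivial B := ⟨0, 1, fun e => zero_ne_one (congrArg Subtype.val e)⟩
  have : IsDomain B := NoZeroDivisors.to_isDomain B
  exact congrArg Subtype.val ((Finite.isDomain_to_isField B).mul_comm ⟨a, ha⟩ ⟨b, hb⟩)

theorem IsAlt.mul_assoc (h : IsAlt D) [Finite D] [NoZeroDivisors D] [Nontrivial D]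
    (h2 : ∀ x : D, x + x = 0) (x y z : D) : x * y * z = x * (y * z) := by
  have h1 := h.cyc z x y
  have h3 := h.cyc x y z
  have h4 := h2 (asc x y z)
  simp only [asc] at h1 h3 h4
  rw [h.mul_comm z (x * y), h.mul_comm (z * x) y] at h1
  rw [h.mul_comm (y * z) x] at h3
  linear_combination (norm := abel) h1 - h3 - h4

/-- a finite pre-semifield of characteristic two with both inverse properties comes from a field -/
theorem exists_field {A B C : Type*} [AddCommGroup A] [AddCommGroup B] [AddCommGroup C] [Finite A]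
    [Finite B] [Finite C] [Nontrivial A] [Nontrivial B] (β : A →+ B →+ C)
    (hβ : ∀ a b, β a b = 0 → a = 0 ∨ b = 0) (hA : Nat.card A = Nat.card C)
    (hB : Nat.card B = Nat.card C) (h2 : ∀ c : C, c + c = 0)
    (hr : ∀ y₁ y₂, y₁ ≠ 0 → y₂ ≠ 0 → (∀ x₁ x₂, β x₁ y₁ = β x₂ y₂ → x₁ + x₂ = 0) ∨
      ∃ y₃, ∀ x₁ x₂, β x₁ y₁ = β x₂ y₂ → β (x₁ + x₂) y₃ = β x₁ y₁)
    (hl : ∀ y₁ y₂, y₁ ≠ 0 → y₂ ≠ 0 → (∀ x₁ x₂, β y₁ x₁ = β y₂ x₂ → x₁ + x₂ = 0) ∨
      ∃ y₃, ∀ x₁ x₂, β y₁ x₁ = β y₂ x₂ → β y₃ (x₁ + x₂) = β y₁ x₁) :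
    ∃ (F : Type) (_ : Field F) (_ : Fintype F) (a : F ≃+ A) (b : F ≃+ B) (c : F ≃+ C),
      ∀ x y, β (a x) (b y) = c (x * y) := by
  obtain ⟨a₀, ha₀⟩ := exists_ne (0 : A)
  obtain ⟨b₀, hb₀⟩ := exists_ne (0 : B)
  let a : A ≃+ C := AddEquiv.ofBijective (β.flip b₀) ((Nat.bijective_iff_injective_and_card _).2
    ⟨(injective_iff_map_eq_zero _).2 fun x e => (hβ x b₀ e).resolve_right hb₀, hA⟩)
  let b : B ≃+ C := AddEquiv.ofBijective (β a₀) ((Nat.bijective_iff_injective_and_card _).2
    ⟨(injective_iff_map_eq_zero _).2 fun x e => (hβ a₀ x e).resolve_left ha₀, hB⟩)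
  have e₁ : a.symm (β a₀ b₀) = a₀ := a.symm_apply_apply a₀
  have e₂ : b.symm (β a₀ b₀) = b₀ := b.symm_apply_apply b₀
  let _ : NonAssocRing C := { (inferInstance : AddCommGroup C) with
    mul := fun x y => β (a.symm x) (b.symm y)
    one := β a₀ b₀
    left_distrib := fun x y z => show β _ (b.symm _) = β _ _ + β _ _ by simp
    right_distrib := fun x y z => show β (a.symm _) _ = β _ _ + β _ _ by simp
    zero_mul := fun x => show β (a.symm _) _ = _ by simp
    mul_zero := fun x => show β _ (b.symm _) = _ by simp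
    one_mul := fun x => show β (a.symm (β a₀ b₀)) _ = _ by rw [e₁]; exact b.apply_symm_apply x
    mul_one := fun x => show β _ (b.symm (β a₀ b₀)) = _ by rw [e₂]; exact a.apply_symm_apply x }
  have m : ∀ x y : C, x * y = β (a.symm x) (b.symm y) := fun _ _ => rfl
  have : NoZeroDivisors C := ⟨fun {x y} e => (hβ _ _ e).imp (by simp) (by simp)⟩
  have : Nontrivial C := a.symm.nontrivial
  have h3 : ∀ x y : C, x + y + y = x := fun x y => by rw [add_assoc, h2, add_zero]
  have alt : IsAlt C := by
    refine ⟨fun y x => ?_, fun y x => ?_⟩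
    · by_cases c : y = 0 ∨ y + 1 = 0
      · rcases c with rfl | c
        · simp
        · simp [show y = 1 by rw [← h3 y 1, c, zero_add]]
      rw [not_or] at c
      have k : ∀ x, β (a.symm y) (b.symm (y * x + x)) = β (a.symm (y + 1)) (b.symm (y * x)) := fun x => by
        rw [← m, ← m, mul_add, add_mul, one_mul]
      rcases hl (a.symm y) (a.symm (y + 1)) (by simpa using c.1) (by simpa [-map_add] using c.2) with e | ⟨z, e⟩
      · have := e _ _ (k x)
        rw [← map_add, add_right_comm, h2, zero_add, map_eq_zero_iff _ b.symm.injective] at this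
        simp [this]
      · have k' : ∀ x, a z * x = y * (y * x) + y * x := fun x => by
          have := e _ _ (k x)
          rwa [← map_add, add_right_comm, h2, zero_add, ← m, mul_add, ← a.symm_apply_apply z, ← m] at this
        have := k' 1
        rw [mul_one, mul_one] at this
        simpa [this, add_mul] using k' x
    · by_cases c : y = 0 ∨ y + 1 = 0
      · rcases c with rfl | c
        · simp
        · simp [show y = 1 by rw [← h3 y 1, c, zero_add]]
      rw [not_or] at c
      have k : ∀ x, β (a.symm (x * y + x)) (b.symm y) = β (a.symm (x * y)) (b.symm (y + 1)) := fun x => by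
        rw [← m, ← m, mul_add, add_mul, mul_one]
      rcases hr (b.symm y) (b.symm (y + 1)) (by simpa using c.1) (by simpa [-map_add] using c.2) with e | ⟨z, e⟩
      · have := e _ _ (k x)
        rw [← map_add, add_right_comm, h2, zero_add, map_eq_zero_iff _ a.symm.injective] at this
        simp [this]
      · have k' : ∀ x, x * b z = x * y * y + x * y := fun x => by
          have := e _ _ (k x)
          rwa [← map_add, add_right_comm, h2, zero_add, ← m, add_mul, ← b.symm_apply_apply z, ← m] at this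
        have := k' 1
        rw [one_mul, one_mul] at this
        simpa [this, mul_add] using (k' x).symm
  let _ : CommRing C := { (inferInstance : NonAssocRing C) with
    mul_assoc := alt.mul_assoc h2, mul_comm := alt.mul_comm }
  have : IsDomain C := NoZeroDivisors.to_isDomain C
  let _ : Field C := (Finite.isField_of_domain C).toField
  let r : Shrink.{0} C ≃+* C := Shrink.ringEquiv.{0} C
  exact ⟨Shrink.{0} C, inferInstance, Fintype.ofFinite _, r.toAddEquiv.trans a.symm,
    r.toAddEquiv.trans b.symm, r.toAddEquiv, fun x y => (map_mul r x y).symm⟩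

end Cfsg.Lib.Alt
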