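import Mathlib
import Cfsg.Agent.Lib.Misc.GL42
import Cfsg.Agent.Lib.Misc.Invol
import Cfsg.Agent.Lib.Quad.ConjRep
import Cfsg.Agent.Lib.Coprime.Constrained
import Cfsg.Agent.S1783

set_option autoImplicit false

namespace Cfsg.Lib

/-! An extension of `2^4` by `Sp(4,2)` has an elementary abelian section of order `32`. -/

open Matrix

/-- a linear model of the Frattini quotient of `O_2(X)` -/
structure Fr4 {X : Type*} [Group X] (Q : Subgroup X) (φ : X →* SpecialLinearGroup (Fin 4) (ZMod 2))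
    (p : X → Fin 4 → ZMod 2) : Prop where
  ker : φ.ker = Q
  add : ∀ a ∈ Q, ∀ b ∈ Q, p (a * b) = p a + p b
  conj : ∀ x, ∀ q ∈ Q, p (x * q * x⁻¹) = (φ x).1 *ᵥ p q
  sub : ∀ x v, ∃ q ∈ Q, (φ x).1 *ᵥ v - v = p q

theorem h9_exists_fr4 {X : Type*} [Group X] [Finite X] (hc : IsPConstrained 2 X)
    (hO : oddCore X = ⊥) (h4 : SectionalPRankLE 2 4 ↥(pCore 2 X)) :
    ∃ φ p, Fr4 (pCore 2 X) φ p ∧ ∀ q ∈ pCore 2 X,
      (p q = 0 ↔ q ∈ (frattini (pCore 2 X)).map (pCore 2 X).subtype) := by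
  classical
  have hC := centralizer_pCore_le_of_isPConstrained hc hO
  set Q := pCore 2 X with hQ
  have hQp : IsPGroup 2 Q := isPGroup_pCore
  set F := (frattini Q).map Q.subtype with hF
  have hFn : F.Normal := inferInstance
  have hcomm : ∀ a ∈ Q, ∀ b ∈ Q, (a : X ⧸ F) * b = b * a := fun a ha b hb => by
    rw [← commutatorElement_eq_one_iff_mul_comm, commutatorElement_def, ← QuotientGroup.mk_inv,
      ← QuotientGroup.mk_inv, ← QuotientGroup.mk_mul, ← QuotientGroup.mk_mul,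
      ← QuotientGroup.mk_mul, QuotientGroup.eq_one_iff]
    exact ⟨_, pg_commutator_le_frattini hQp (Subgroup.commutator_mem_commutator
      (Subgroup.mem_top ⟨a, ha⟩) (Subgroup.mem_top ⟨b, hb⟩)), rfl⟩
  have hpow : ∀ a ∈ Q, (a : X ⧸ F) ^ 2 = 1 := fun a ha => by
    rw [← QuotientGroup.mk_pow, QuotientGroup.eq_one_iff]
    exact ⟨_, pg_pow_mem_frattini hQp ⟨a, ha⟩, rfl⟩
  let V : Subgroup (X ⧸ F) := Q.map (QuotientGroup.mk' F)
  have hV : IsElementaryAbelian 2 V := by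
    refine ⟨⟨⟨?_⟩⟩, ?_⟩
    · rintro ⟨_, a, ha, rfl⟩ ⟨_, b, hb, rfl⟩
      exact Subtype.ext (hcomm a ha b hb)
    · rintro _ ⟨a, ha, rfl⟩
      exact hpow a ha
  have hVn : V.Normal := Subgroup.Normal.map inferInstance _ (QuotientGroup.mk'_surjective F)
  obtain ⟨M, _, _, ⟨m⟩⟩ := Quad.exists_conjModel (H := ⊤) hV Subgroup.le_normalizer_of_normal
  haveI := m.finite
  have hM : Nat.card M ≤ 16 := by
    have h1 := h9_card_range_le_of_sectional h4 (H := ⊤)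
      (((QuotientGroup.mk' F).comp Q.subtype).comp (Subgroup.subtype ⊤))
      (fun x y => hcomm _ x.1.2 _ y.1.2) (fun x => hpow _ x.1.2)
    rw [MonoidHom.range_comp, Subgroup.range_subtype, ← MonoidHom.range_eq_map,
      MonoidHom.range_comp, Subgroup.range_subtype] at h1
    have h2 := m.card_sub ⊤
    rw [m.sub_top] at h2
    rw [Nat.card_congr (Submodule.topEquiv (R := ZMod 2) (M := M)).toEquiv] at h2
    exact h2 ▸ h1
  obtain ⟨φ, j, hφ, hj, hj1, hj2⟩ := h9_hom_sl4' (m.rep.comp ((Subgroup.topEquiv.symm.toMonoidHom).comp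
    (QuotientGroup.mk' F))) hM
  have hex : ∀ q ∈ Q, ∃ x, m.elt x = (q : X ⧸ F) := fun q hq => m.exists_elt ⟨q, hq, rfl⟩
  choose! c hc using hex
  refine ⟨φ, fun q => j (c q), ⟨Subgroup.ext fun x => ?_, fun a ha b hb => ?_, fun x q hq => ?_,
    fun x v => ?_⟩, fun q hq => ?_⟩
  · rw [MonoidHom.mem_ker, hφ]
    refine (m.rep_eq_one_iff _).trans ?_
    change (x : X ⧸ F) ∈ _ ↔ _
    constructor
    · intro h
      refine Cfsg.Agent.S1783.le_pCore_of_frattini hC fun q hq => ?_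
      have := h _ ⟨q, hq, rfl⟩
      change _ ∈ F
      rw [← QuotientGroup.eq_one_iff]
      simp only [QuotientGroup.mk'_apply] at this
      simp only [QuotientGroup.mk_mul, QuotientGroup.mk_inv]
      have h2 : (x : X ⧸ F) * q = q * x := this.symm
      rw [h2]
      group
    · rintro h _ ⟨q, hq, rfl⟩
      exact hcomm q hq x h
  · rw [← map_add]
    congr 1
    apply m.elt_injective
    rw [m.elt_add, hc _ ha, hc _ hb, hc _ (Q.mul_mem ha hb), QuotientGroup.mk_mul]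
  · rw [← hj1]
    congr 1
    apply m.elt_injective
    rw [hc _ ((inferInstance : Q.Normal).conj_mem q hq x)]
    refine Eq.trans ?_ (m.elt_rep _ _).symm
    rw [hc _ hq]; rfl
  · obtain ⟨w, hw⟩ := hj2 x v
    obtain ⟨q, hq, e⟩ := m.elt_mem w
    exact ⟨q, hq, by rw [hw, m.elt_injective ((hc q hq).trans e)]⟩
  · rw [map_eq_zero_iff _ hj, ← m.elt_injective.eq_iff, hc _ hq, m.elt_zero,
      QuotientGroup.eq_one_iff]

variable {X : Type*} [Group X] {Q : Subgroup X} {φ : X →* SpecialLinearGroup (Fin 4) (ZMod 2)}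
  {p : X → Fin 4 → ZMod 2}

theorem Fr4.conj_by (h : Fr4 Q φ p) (γ : SpecialLinearGroup (Fin 4) (ZMod 2)) :
    Fr4 Q ((MulAut.conj γ).toMonoidHom.comp φ) fun q => γ.1 *ᵥ p q := by
  have k : ∀ v, (γ⁻¹).1 *ᵥ (γ.1 *ᵥ v) = v := fun v => by
    have : (γ⁻¹ * γ).1 = 1 := by rw [inv_mul_cancel]; rfl
    rw [mulVec_mulVec]
    exact (congrArg (· *ᵥ v) this).trans (one_mulVec v)
  have k' : ∀ v, γ.1 *ᵥ ((γ⁻¹).1 *ᵥ v) = v := fun v => by
    have : (γ * γ⁻¹).1 = 1 := by rw [mul_inv_cancel]; rfl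
    rw [mulVec_mulVec]
    exact (congrArg (· *ᵥ v) this).trans (one_mulVec v)
  have e : ∀ x v, (((MulAut.conj γ).toMonoidHom.comp φ) x).1 *ᵥ v =
      γ.1 *ᵥ ((φ x).1 *ᵥ ((γ⁻¹).1 *ᵥ v)) := fun x v => by
    rw [mulVec_mulVec, mulVec_mulVec]
    rfl
  refine ⟨?_, fun a ha b hb => ?_, fun x q hq => ?_, fun x v => ?_⟩
  · rw [← h.ker]
    ext x
    simp only [MonoidHom.mem_ker, MonoidHom.comp_apply, MulEquiv.coe_toMonoidHom,
      MulEquiv.map_eq_one_iff]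
  · rw [h.add a ha b hb, mulVec_add]
  · rw [h.conj x q hq, e, k]
  · obtain ⟨q, hq, hh⟩ := h.sub x ((γ⁻¹).1 *ᵥ v)
    exact ⟨q, hq, by rw [← hh, mulVec_sub, e, k']⟩

/-- the unipotent radical of the stabiliser of an isotropic line -/
def h9spE (a : ZMod 2 × ZMod 2 × ZMod 2) : Matrix (Fin 4) (Fin 4) (ZMod 2) :=
  !![1, 0, a.2.2, a.1; 0, 1, a.2.1, a.2.2; 0, 0, 1, 0; 0, 0, 0, 1]

/-- auxiliary symplectic matrices -/
def h9spS (a : ZMod 2 × ZMod 2 × ZMod 2) : Matrix (Fin 4) (Fin 4) (ZMod 2) :=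
  if a = (0, 1, 0) then !![1, 0, 0, 1; 0, 1, 0, 0; 0, 0, 1, 0; 1, 0, 0, 0]
  else if a = (1, 0, 0) then !![1, 0, 0, 0; 0, 1, 1, 0; 0, 1, 0, 0; 0, 0, 0, 1]
  else if a = (1, 1, 1) then !![0, 1, 1, 0; 1, 0, 0, 0; 0, 0, 0, 1; 0, 0, 1, 0]
  else if a = (1, 1, 0) ∨ a = (0, 0, 1) then !![0, 1, 0, 0; 1, 0, 0, 0; 0, 0, 0, 1; 0, 0, 1, 0]
  else 1

theorem h9spE_mul : ∀ a b, h9spE (a + b) = h9spE a * h9spE b := by decide +kernel
theorem h9spE_zero : h9spE 0 = 1 := by decide +kernel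
theorem h9spE_inj : ∀ a, h9spE a = 1 → a = 0 := by decide +kernel
theorem h9spE_sp : ∀ a, h9spE a * h9alt 12 * (h9spE a)ᵀ = h9alt 12 := by decide +kernel
theorem h9spS_sp : ∀ a, h9spS a * h9alt 12 * (h9spS a)ᵀ = h9alt 12 := by decide +kernel
theorem h9spS_comm : ∀ a, h9spS a * h9spE a = h9spE a * h9spS a := by decide +kernel
theorem h9spE_low : ∀ a (v : Fin 4 → ZMod 2), (h9spE a *ᵥ v) 2 = v 2 ∧ (h9spE a *ᵥ v) 3 = v 3 := by
  decide +kernel
theorem h9spS_key : ∀ a, a ≠ 0 → ∀ u : Fin 4 → ZMod 2, h9spE a *ᵥ u = u →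
    ∀ q : Fin 4 → ZMod 2, h9spE a *ᵥ q = q + u + h9spS a *ᵥ u → u 2 = 0 ∧ u 3 = 0 := by
  decide +kernel
theorem h9sp_fpf : ∃ s : Matrix (Fin 4) (Fin 4) (ZMod 2), s * h9alt 12 * sᵀ = h9alt 12 ∧
    ∀ v : Fin 4 → ZMod 2, ∃ u, s *ᵥ u - u = v :=
  ⟨!![0, 1, 1, 0; 1, 0, 0, 0; 0, 0, 0, 1; 0, 1, 0, 0], by decide +kernel⟩

theorem h9sp_det {s : Matrix (Fin 4) (Fin 4) (ZMod 2)} (h : s * h9alt 12 * sᵀ = h9alt 12) :
    s.det = 1 := by
  have h1 := congrArg det h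
  have h2 : (h9alt 12).det * (h9alt 12).det = 1 := by
    rw [← det_mul, show h9alt 12 * h9alt 12 = 1 by decide +kernel, det_one]
  rw [det_mul, det_mul, det_transpose] at h1
  revert h1 h2
  generalize s.det = a; generalize (h9alt 12).det = b
  revert a b; decide

theorem Fr4.not_sectional [Finite X] (h : Fr4 Q φ p)
    (hsp : ∀ s : SpecialLinearGroup (Fin 4) (ZMod 2), s.1 * h9alt 12 * s.1ᵀ = h9alt 12 →
      s ∈ φ.range) : ¬ SectionalPRankLE 2 4 X := by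
  intro h4
  have hQn : Q.Normal := h.ker ▸ inferInstance
  have hsp' : ∀ s : Matrix (Fin 4) (Fin 4) (ZMod 2), s * h9alt 12 * sᵀ = h9alt 12 →
      ∃ x, (φ x).1 = s := fun s hs => by
    obtain ⟨x, hx⟩ := hsp ⟨s, h9sp_det hs⟩ hs
    exact ⟨x, congrArg Subtype.val hx⟩
  have hsurj : ∀ v, ∃ q ∈ Q, p q = v := fun v => by
    obtain ⟨s, hs, hs'⟩ := h9sp_fpf
    obtain ⟨x, hx⟩ := hsp' s hs
    obtain ⟨u, rfl⟩ := hs' v
    obtain ⟨q, hq, e⟩ := h.sub x u
    exact ⟨q, hq, by rw [← e, hx]⟩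
  have p1 : p 1 = 0 := by simpa using h.add 1 Q.one_mem 1 Q.one_mem
  let π : Q →* Multiplicative (ZMod 2 × ZMod 2) :=
    { toFun := fun q => Multiplicative.ofAdd (p q 2, p q 3)
      map_one' := by simp [p1]
      map_mul' := fun a b => by
        rw [Subgroup.coe_mul, h.add _ a.2 _ b.2, ← ofAdd_add]; rfl }
  let N := π.ker.map Q.subtype
  have hN : ∀ x, x ∈ N ↔ x ∈ Q ∧ p x 2 = 0 ∧ p x 3 = 0 := fun x => by
    constructor
    · rintro ⟨q, hq, rfl⟩
      exact ⟨q.2, Prod.ext_iff.1 (Multiplicative.ofAdd.injective hq)⟩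
    · rintro ⟨h1, h2, h3⟩
      refine ⟨⟨x, h1⟩, ?_, rfl⟩
      change Multiplicative.ofAdd (p x 2, p x 3) = 1
      rw [h2, h3]; rfl
  let μ : Multiplicative (ZMod 2 × ZMod 2 × ZMod 2) →* SpecialLinearGroup (Fin 4) (ZMod 2) :=
    { toFun := fun a => ⟨h9spE a.toAdd, h9sp_det (h9spE_sp _)⟩
      map_one' := Subtype.ext h9spE_zero
      map_mul' := fun a b => Subtype.ext (h9spE_mul _ _) }
  have hμ : Function.Injective μ := (injective_iff_map_eq_one μ).2 fun a ha =>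
    h9spE_inj _ (congrArg Subtype.val ha)
  let Y := μ.range.comap φ
  have hY : ∀ y ∈ Y, ∃ a, (φ y).1 = h9spE a := fun y ⟨a, ha⟩ =>
    ⟨a.toAdd, (congrArg Subtype.val ha).symm⟩
  have hQY : Q ≤ Y := fun q hq => by
    rw [← h.ker] at hq
    exact Subgroup.mem_comap.2 (by rw [hq]; exact Subgroup.one_mem _)
  haveI hn : (N.subgroupOf Y).Normal := ⟨fun n hn y => by
    rw [Subgroup.mem_subgroupOf, hN] at hn ⊢
    obtain ⟨a, ha⟩ := hY y y.2
    refine ⟨hQn.conj_mem _ hn.1 _, ?_⟩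
    simp only [Subgroup.coe_mul, Subgroup.coe_inv]
    rw [h.conj _ _ hn.1, ha, (h9spE_low _ _).1, (h9spE_low _ _).2]
    exact hn.2⟩
  have hsq : ∀ y ∈ Y, y * y ∈ N := fun y hy => by
    obtain ⟨a, ha⟩ := hY y hy
    have h1 : y * y ∈ Q := by
      rw [← h.ker, MonoidHom.mem_ker, map_mul]
      apply Subtype.ext
      change (φ y).1 * (φ y).1 = 1
      rw [ha, ← h9spE_mul, show a + a = 0 by clear ha; revert a; decide, h9spE_zero]
    refine (hN _).2 ⟨h1, ?_⟩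
    by_cases h0 : a = 0
    · have h2 : y ∈ Q := by
        rw [← h.ker, MonoidHom.mem_ker]
        exact Subtype.ext (by rw [ha, h0, h9spE_zero]; rfl)
      rw [h.add y h2 y h2]
      simp only [Pi.add_apply, CharTwo.add_self_eq_zero, and_self]
    obtain ⟨s, hs⟩ := hsp' _ (h9spS_sp a)
    have h2 : s * y * s⁻¹ * y⁻¹ ∈ Q := by
      rw [← h.ker, MonoidHom.mem_ker]
      simp only [map_mul, map_inv, mul_inv_eq_one, mul_inv_eq_iff_eq_mul, one_mul]
      apply Subtype.ext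
      change (φ s).1 * (φ y).1 = (φ y).1 * (φ s).1
      rw [hs, ha, h9spS_comm]
    have h3 := h.conj y _ h1
    rw [show y * (y * y) * y⁻¹ = y * y by group, ha] at h3
    refine h9spS_key a h0 _ h3.symm (p (s * y * s⁻¹ * y⁻¹)) ?_
    have h5 := h.conj s _ h1
    have h6 := h.conj y _ h2
    rw [show s * (y * y) * s⁻¹ = (s * y * s⁻¹ * y⁻¹) * (y * (s * y * s⁻¹ * y⁻¹) * y⁻¹) * (y * y) by
      group, h.add _ (Q.mul_mem h2 (hQn.conj_mem _ h2 _)) _ h1, h.add _ h2 _ (hQn.conj_mem _ h2 _),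
      h6, ha, hs] at h5
    rw [← h5]
    generalize p (s * y * s⁻¹ * y⁻¹) = q
    generalize h9spE a *ᵥ q = r
    generalize p (y * y) = u
    ext i
    simp only [Pi.add_apply]
    generalize q i = q, r i = r, u i = u
    revert q r u; decide
  have hsq' : ∀ x : Y ⧸ N.subgroupOf Y, x * x = 1 := fun x => by
    induction x using QuotientGroup.induction_on with
    | H y => rw [← QuotientGroup.mk_mul, QuotientGroup.eq_one_iff]; exact hsq y y.2
  have h1 := h4 Y (N.subgroupOf Y) ⊤ ⟨⟨fun a b => Subtype.ext (h9_comm_of_sq (hsq' _) (hsq' _)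
    (hsq' _))⟩⟩ fun a _ => by rw [pow_two, hsq']
  rw [Subgroup.card_top] at h1
  change N.relIndex Y ≤ _ at h1
  rw [← Subgroup.relIndex_mul_relIndex N Q Y (Subgroup.map_subtype_le _) hQY] at h1
  have h2 : N.relIndex Q = 4 := by
    rw [Subgroup.relIndex, Subgroup.subgroupOf, Subgroup.comap_map_eq_self_of_injective
      Q.subtype_injective, Subgroup.index_ker, MonoidHom.range_eq_top.2, Subgroup.card_top]
    · simp
    · intro v
      obtain ⟨q, hq, e⟩ := hsurj ![0, 0, v.toAdd.1, v.toAdd.2]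
      refine ⟨⟨q, hq⟩, ?_⟩
      change Multiplicative.ofAdd (p q 2, p q 3) = v
      rw [e]; rfl
  have h3 : Q.relIndex Y = 8 := by
    rw [← h.ker, Subgroup.relIndex_ker, Subgroup.map_comap_eq_self,
      ← Nat.card_congr (MonoidHom.ofInjective hμ).toEquiv]
    · simp
    · rintro _ ⟨a, rfl⟩
      exact hsp _ (h9spE_sp _)
  rw [h2, h3] at h1
  norm_num at h1

end Cfsg.Lib
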