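import Cfsg.Agent.Lib.FT.Basic.MinSimple
import Cfsg.Agent.Lib.PGroup.Frattini

/-!
Elementary abelian TI-subgroups `U` with a "radical" `X` of class two: `Loc U X`.
-/

set_option autoImplicit false

namespace Cfsg.Lib.TIE
open Subgroup Cfsg.Lib Cfsg.Lib.FT
open scoped commutatorElement

variable {G : Type*} [Group G]

structure Loc (U X : Subgroup G) : Prop where
  sq : ∀ x ∈ U, x * x = 1
  le : U ≤ X
  cent : ∀ x ∈ X, ∀ u ∈ U, x * u = u * x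
  comm : ∀ x ∈ X, ∀ y ∈ X, ⁅x, y⁆ ∈ U
  faith : ∀ x, (∀ u ∈ U, x * u = u * x) → (∀ y ∈ X, ⁅x, y⁆ ∈ U) → x ∈ X
  maxl : ∀ A ≤ X, (∀ m ∈ N[U], ∀ x ∈ A, ∀ y ∈ A, x * (m * y * m⁻¹) = m * y * m⁻¹ * x) → A ≤ U
  norm : N[U] ≤ N[X]
  ti : ∀ g, ∀ x ∈ U, x ≠ 1 → g * x * g⁻¹ ∈ U → g ∈ N[U]

theorem conj_comm {g x y : G} (h : x * y = y * x) : g * x * g⁻¹ * (g * y * g⁻¹) = g * y * g⁻¹ * (g * x * g⁻¹) := by
  simp only [conj_mul, h]

theorem ce_one {x y : G} : ⁅x, y⁆ = 1 ↔ x * y = y * x := commutatorElement_eq_one_iff_mul_comm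

theorem conj_eq_ce (x y : G) : x * y * x⁻¹ = ⁅x, y⁆ * y := by simp [commutatorElement_def]

theorem ce_of_conj {x y : G} {U : Subgroup G} (hy : y ∈ U) (h : x * y * x⁻¹ ∈ U) : ⁅x, y⁆ ∈ U :=
  mul_mem h (inv_mem hy)

namespace Loc

variable {U X : Subgroup G} (h : Loc U X)
include h

theorem conj (g : G) : Loc (g •ᶜ U) (g •ᶜ X) := by
  refine ⟨?_, map_mono h.le, ?_, ?_, fun x h1 h2 => ?_, fun A hA h1 => ?_, ?_, fun k x hx h1 h2 => ?_⟩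
  · rintro _ ⟨x, hx, rfl⟩
    rw [← map_mul, h.sq x hx, map_one]
  · rintro _ ⟨x, hx, rfl⟩ _ ⟨u, hu, rfl⟩
    rw [← map_mul, h.cent x hx u hu, map_mul]
  · rintro _ ⟨x, hx, rfl⟩ _ ⟨u, hu, rfl⟩
    exact ⟨_, h.comm x hx u hu, map_commutatorElement _ _ _⟩
  · refine mem_map_conj.2 (h.faith _ (fun u hu => ?_) fun y hy => ?_)
    · simpa [mul_assoc] using conj_comm (g := g⁻¹) (h1 _ (conj_mem_conj hu g))
    · have := mem_map_conj.1 (h2 _ (conj_mem_conj hy g))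
      simpa [commutatorElement_def, mul_assoc] using this
  · refine le_conj_iff.2 (h.maxl _ (le_conj_iff.1 hA) fun m hm x hx y hy => ?_)
    have := h1 _ (conj_normalizer g U ▸ conj_mem_conj hm g) _ (mem_map_conj.1 hx) _ (mem_map_conj.1 hy)
    simpa [mul_assoc] using conj_comm (g := g⁻¹) this
  · rw [← conj_normalizer, ← conj_normalizer]
    exact map_mono h.norm
  · rw [← conj_normalizer, mem_map_conj]
    refine h.ti _ _ (mem_map_conj.1 hx) (by simpa [mul_assoc, inv_mul_eq_iff_eq_mul] using h1) ?_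
    simpa [mul_assoc] using mem_map_conj.1 h2

theorem inv {x : G} (hx : x ∈ U) : x⁻¹ = x := inv_eq_of_mul_eq_one_right (h.sq x hx)

theorem nrm {g x : G} (hx : x ∈ U) (h1 : x ≠ 1) (e : g * x = x * g) : g ∈ N[U] :=
  h.ti g x hx h1 (by rwa [e, mul_inv_cancel_right])

theorem le_norm : X ≤ N[U] := fun x hx => centralizer_le_normalizer _
  (mem_centralizer_iff.2 fun u hu => (h.cent x hx u hu).symm)

theorem center {x : G} (hx : x ∈ X) (hc : ∀ y ∈ X, x * y = y * x) : x ∈ U :=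
  h.maxl (X ⊓ C[X]) inf_le_left (fun _ hm _ hy _ hz => (mem_centralizer_iff.1 hy.2 _
    (conj_mem_of_mem_normalizer (h.norm hm) hz.1)).symm) ⟨hx, mem_centralizer_iff.2 fun y hy => (hc y hy).symm⟩

theorem mul_left {x y z : G} (hx : x ∈ X) (hy : ⁅y, z⁆ ∈ U) : ⁅x * y, z⁆ = ⁅y, z⁆ * ⁅x, z⁆ := by
  rw [commutatorElement_mul_left_eq_conj_mul, h.cent x hx _ hy, mul_inv_cancel_right]

theorem mul_right {x y z : G} (hy : y ∈ X) (hz : ⁅x, z⁆ ∈ U) : ⁅x, y * z⁆ = ⁅x, y⁆ * ⁅x, z⁆ := by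
  rw [commutatorElement_mul_right_eq_mul_conj, mul_assoc, mul_assoc, ← mul_assoc y, h.cent y hy _ hz,
    mul_inv_cancel_right]

theorem sq_mem {x : G} (hx : x ∈ X) : x * x ∈ U :=
  h.center (mul_mem hx hx) fun y hy => ce_one.1 (by
    rw [h.mul_left hx (h.comm x hx y hy), h.sq _ (h.comm x hx y hy)])

theorem symm {x y : G} (hx : ⁅x, y⁆ ∈ U) : ⁅y, x⁆ = ⁅x, y⁆ := by
  rw [← commutatorElement_inv, h.inv hx]

/-- adjointness for an element centralizing `U` -/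
theorem adj {g x y : G} (hg : ∀ u ∈ U, g * u = u * g) (hn : g ∈ N[X]) (hx : x ∈ X) (hy : y ∈ X)
    (e : ⁅g⁻¹, x⁆ * y = y * ⁅g⁻¹, x⁆) : x * ⁅g, y⁆ = ⁅g, y⁆ * x := by
  have h1 := conj_mem_of_mem_normalizer (inv_mem hn) hx
  have h2 : ⁅x, g * y * g⁻¹⁆ = ⁅g⁻¹ * x * g⁻¹⁻¹, y⁆ := by
    rw [← mul_inv_cancel_right ⁅g⁻¹ * x * g⁻¹⁻¹, y⁆ g, ← hg _ (h.comm _ h1 _ hy)]
    simp [commutatorElement_def, mul_assoc]
  rw [conj_eq_ce, conj_eq_ce, h.mul_left (ce_of_conj hx h1) (h.comm _ hx _ hy), ce_one.2 e,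
    h.mul_right (ce_of_conj hy (conj_mem_of_mem_normalizer hn hy)) (h.comm _ hx _ hy)] at h2
  exact ce_one.1 (by simpa using h2)

end Loc

theorem onto [Finite G] {U U' : Subgroup G} (hc : Nat.card U' = Nat.card U) {y : G}
    (hm : ∀ w ∈ U', ⁅w, y⁆ ∈ U) (hn : ∀ w ∈ U', w * y = y * w → w = 1) {u : G} (hu : u ∈ U) :
    ∃ w ∈ U', ⁅w, y⁆ = u := by
  obtain ⟨w, e⟩ := ((Nat.bijective_iff_injective_and_card (fun w : U' => (⟨_, hm w w.2⟩ : U))).2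
    ⟨fun a b e => Subtype.ext (by
      have e : a * y * (a : G)⁻¹ = b * y * (b : G)⁻¹ := mul_right_cancel (congrArg Subtype.val e)
      refine (inv_mul_eq_one.1 (hn _ (mul_mem (inv_mem b.2) a.2) ?_)).symm
      calc (b : G)⁻¹ * a * y = (b : G)⁻¹ * (a * y * (a : G)⁻¹) * a := by group
        _ = _ := by rw [e]; group), hc⟩).2 ⟨u, hu⟩
  exact ⟨w, w.2, congrArg Subtype.val e⟩

/-- two different conjugates -/
structure Two (U X U' X' : Subgroup G) : Prop where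
  loc : Loc U X
  cj : ∃ g, g •ᶜ U = U' ∧ g •ᶜ X = X'
  ne : U ≠ U'

namespace Two

variable {U X U' X' U'' X'' : Subgroup G} (h : Two U X U' X')
include h

theorem loc' : Loc U' X' := by
  obtain ⟨g, rfl, rfl⟩ := h.cj
  exact h.loc.conj g

theorem symm : Two U' X' U X := by
  obtain ⟨g, e1, e2⟩ := h.cj
  exact ⟨h.loc', ⟨g⁻¹, (conj_eq_iff.1 e1).symm, (conj_eq_iff.1 e2).symm⟩, h.ne.symm⟩

theorem card : Nat.card U' = Nat.card U := by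
  obtain ⟨g, rfl, -⟩ := h.cj
  exact card_conj g U

theorem eq_of {g x : G} (hx : x ∈ U) (h1 : x ≠ 1) (hg : g * x * g⁻¹ ∈ U') :
    g •ᶜ U = U' ∧ g •ᶜ X = X' := by
  obtain ⟨k, rfl, rfl⟩ := h.cj
  have := h.loc.ti (k⁻¹ * g) x hx h1 (by simpa [mul_assoc] using mem_map_conj.1 hg)
  rw [← mul_inv_cancel_left k g, ← conj_conj k, ← conj_conj k, conj_eq_iff_mem_normalizer.2 this,
    conj_eq_iff_mem_normalizer.2 (h.loc.norm this)]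
  simp

theorem disj {x : G} (hx : x ∈ U) (hx' : x ∈ U') : x = 1 := by_contra fun c =>
  h.ne ((conj_eq_of_mem U.one_mem).symm.trans (h.eq_of (g := 1) hx c (by simpa using hx')).1)

theorem of_conj (g : G) (hne : U ≠ g •ᶜ U') : Two U X (g •ᶜ U') (g •ᶜ X') := by
  obtain ⟨k, rfl, rfl⟩ := h.cj
  exact ⟨h.loc, ⟨g * k, (conj_conj _ _ _).symm, (conj_conj _ _ _).symm⟩, hne⟩

theorem conj (g : G) : Two (g •ᶜ U) (g •ᶜ X) (g •ᶜ U') (g •ᶜ X') := by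
  obtain ⟨k, rfl, rfl⟩ := h.cj
  exact ⟨h.loc.conj g, ⟨g * k * g⁻¹, by rw [conj_conj, conj_conj, inv_mul_cancel_right],
    by rw [conj_conj, conj_conj, inv_mul_cancel_right]⟩,
    fun e => h.ne (conj_inj.1 e)⟩

theorem exists_ne_one : ∃ x ∈ U, x ≠ 1 := (bot_or_exists_ne_one U).resolve_left fun e => by
  obtain ⟨k, e1, -⟩ := h.cj
  exact h.ne (by rw [← e1, e, conj_bot])

/-- an element commuting with one element of `U'` and moving `U'` only modulo `U` centralizes `U'` -/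
theorem cent_of {y x : G} (hy : ∀ w ∈ U', ⁅y, w⁆ ∈ U) (hx : x ∈ U') (h1 : x ≠ 1) (e : y * x = x * y) :
    ∀ w ∈ U', y * w = w * y := fun w hw =>
  ce_one.1 (h.disj (hy w hw) (ce_of_conj hw (conj_mem_of_mem_normalizer (h.loc'.nrm hx h1 e) hw)))

variable [Finite G]

theorem cent_of_norm (hn : U' ≤ N[U]) : ∀ v ∈ U, ∀ w ∈ U', v * w = w * v := fun v hv => by
  have hm : ∀ w ∈ U', ⁅w, v⁆ ∈ U := fun w hw => ce_of_conj hv (conj_mem_of_mem_normalizer (hn hw) hv)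
  by_contra c
  obtain ⟨w, hw, e⟩ := onto h.card hm (fun w hw e => by_contra fun h1 => c (h.cent_of
    (fun w hw => pg_commutatorElement_mem_symm (hm w hw)) hw h1 e.symm)) hv
  rw [commutatorElement_def, mul_inv_eq_iff_eq_mul, h.loc.sq v hv] at e
  exact c fun w _ => by simp [show v = 1 by simpa using e]

variable (hle : U' ≤ X)
include hle

omit [Finite G] in
theorem cent_X {y x : G} (hy : y ∈ X) (hx : x ∈ U') (h1 : x ≠ 1) (e : y * x = x * y) :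
    ∀ w ∈ U', y * w = w * y := h.cent_of (fun w hw => h.loc.comm _ hy _ (hle hw)) hx h1 e

theorem onto_X {y : G} (hy : y ∈ X) (hn : ¬ ∀ w ∈ U', y * w = w * y) {u : G} (hu : u ∈ U) :
    ∃ w ∈ U', ⁅y, w⁆ = u := by
  obtain ⟨w, hw, e⟩ := onto h.card (fun w hw => h.loc.comm _ (hle hw) _ hy)
    (fun w hw e => by_contra fun h1 => hn (h.cent_X hle hy hw h1 e.symm)) hu
  exact ⟨w, hw, by rw [h.loc.symm (e ▸ hu), e]⟩

theorem exists_third : ∃ U'' X'', Two U X U'' X'' ∧ U'' ≤ X ∧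
    ∀ x ∈ U', ∀ y ∈ U'', x * y = y * x → x = 1 ∨ y = 1 := by
  have : ¬ U' ≤ U := fun c => by
    obtain ⟨x, hx, h1⟩ := h.symm.exists_ne_one
    exact h1 (h.disj (c hx) hx)
  have := mt (h.loc.maxl U' hle) this
  push Not at this
  obtain ⟨m, hm, x, hx, y, hy, e⟩ := this
  have h2 := h.of_conj m fun c => h.ne (conj_inj.1 ((conj_eq_iff_mem_normalizer.2 hm).trans c))
  have h3 : m •ᶜ U' ≤ X := (map_mono hle).trans_eq (conj_eq_iff_mem_normalizer.2 (h.loc.norm hm))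
  refine ⟨_, _, h2, h3, fun a ha b hb e' => by_contra fun c => e ?_⟩
  rw [not_or] at c
  exact (h.cent_X hle (h3 (conj_mem_conj hy m)) ha c.1
    (h2.cent_X h3 (hle ha) hb c.2 e' _ (conj_mem_conj hy m)).symm x hx).symm

/-- `X = C_X(U') U''` -/
theorem exists_mul (h'' : Two U X U'' X'') (hle'' : U'' ≤ X)
    (nd : ∀ x ∈ U', ∀ y ∈ U'', x * y = y * x → x = 1 ∨ y = 1) {y : G} (hy : y ∈ X) :
    ∃ z ∈ U'', ∀ w ∈ U', y * z * w = w * (y * z) := by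
  obtain ⟨x, hx, h1⟩ := h.symm.exists_ne_one
  obtain ⟨y₀, hy₀, h2⟩ := h''.symm.exists_ne_one
  obtain ⟨z, hz, e⟩ := h''.onto_X hle'' (hle hx) (fun c => (nd x hx y₀ hy₀ (c _ hy₀)).elim h1 h2)
    (h.loc.comm _ (hle hx) _ hy)
  refine ⟨z, hz, h.cent_X hle (mul_mem hy (hle'' hz)) hx h1 (ce_one.1 ?_).symm⟩
  rw [h.loc.mul_right hy (h.loc.comm _ (hle hx) _ (hle'' hz)), e, h.loc.sq _ (h.loc.comm _ (hle hx) _ hy)]

theorem tr {x u : G} (hx : x ∈ U') (h1 : x ≠ 1) (hu : u ∈ U) : ∃ y ∈ X, ⁅y, x⁆ = u := by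
  obtain ⟨U'', X'', h'', hle'', nd⟩ := h.exists_third hle
  obtain ⟨y₀, hy₀, h2⟩ := h''.symm.exists_ne_one
  obtain ⟨z, hz, e⟩ := h''.onto_X hle'' (hle hx) (fun c => (nd x hx y₀ hy₀ (c _ hy₀)).elim h1 h2) hu
  exact ⟨z, hle'' hz, by rw [h.loc.symm (e ▸ hu), e]⟩

theorem swap {x v : G} (hx : x ∈ X') (hv : v ∈ U) (h1 : ⁅x, v⁆ ∈ U') (h2 : ⁅x, v⁆ ≠ 1) : U ≤ X' := by
  have v1 : v ≠ 1 := by rintro rfl; simp at h2
  obtain ⟨y, hy, e⟩ := h.tr hle h1 h2 hv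
  have e2 : y⁻¹ * x * v * (y⁻¹ * x)⁻¹ = ⁅x, v⁆ := by
    rw [mul_assoc y⁻¹, mul_inv_rev, inv_inv, ← mul_assoc, mul_assoc y⁻¹, conj_eq_ce x,
      h.loc.cent _ (hle h1) _ hv]
    nth_rw 1 [← e]
    rw [← conj_eq_ce]
    group
  obtain ⟨-, e3⟩ := h.eq_of hv v1 (e2 ▸ h1)
  intro u hu
  obtain ⟨w, hw, rfl⟩ := h.onto_X hle (inv_mem hy) (fun c => v1 (by
    rw [← e, ce_one, eq_comm, ← inv_mul_eq_iff_eq_mul, ← mul_assoc, c _ h1, inv_mul_cancel_right])) hu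
  refine ce_of_conj (h.loc'.le hw) ?_
  have := conj_mem_conj (hle (conj_mem_of_mem_normalizer (inv_mem (h.loc'.le_norm hx)) hw)) (y⁻¹ * x)
  rw [e3] at this
  simpa [mul_assoc] using this

/-- `Z(C_X(U')) ≤ U U'` -/
theorem center_R {a : G} (ha : a ∈ X) (hc : ∀ y ∈ X ⊓ C[U'], a * y = y * a) :
    ∃ w ∈ U', a * w ∈ U := by
  obtain ⟨U'', X'', h'', hle'', nd⟩ := h.exists_third hle
  obtain ⟨x, hx, h1⟩ := h.symm.exists_ne_one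
  obtain ⟨y₀, hy₀, h2⟩ := h''.symm.exists_ne_one
  obtain ⟨w, hw, e⟩ := h.onto_X hle (hle'' hy₀) (fun c => (nd x hx y₀ hy₀ (c _ hx).symm).elim h1 h2)
    (h.loc.comm _ (hle'' hy₀) _ ha)
  have haw := mul_mem ha (hle hw)
  refine ⟨w, hw, h.loc.center haw fun y hy => ?_⟩
  obtain ⟨z, hz, e'⟩ := h.exists_mul hle h'' hle'' nd hy
  have h3 := h''.cent_X hle'' haw hy₀ h2 (ce_one.1 (by
    rw [h.loc.mul_right ha (e ▸ h.loc.comm _ (hle'' hy₀) _ ha), e,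
      h.loc.sq _ (h.loc.comm _ (hle'' hy₀) _ ha)])).symm z hz
  have h4 : a * w * (y * z) = y * z * (a * w) := by
    rw [mul_assoc, ← e' w hw, ← mul_assoc,
      hc _ ⟨mul_mem hy (hle'' hz), mem_centralizer_iff.2 fun w hw => (e' w hw).symm⟩, mul_assoc]
  rwa [mul_assoc y, ← h3, ← mul_assoc, ← mul_assoc y, mul_left_inj] at h4

/-- (a) -/
theorem le_symm : U ≤ X' := by
  by_contra hn
  have l := h.loc
  have l' := h.loc'
  have a1 : ∀ x ∈ X', ∀ v ∈ U, ⁅x, v⁆ ∈ U' → x * v = v * x := fun x hx v hv h1 =>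
    ce_one.1 (by_contra fun c => hn (h.swap hle hx hv h1 c))
  have a2 : ∀ v ∈ U, v ∈ X' → v = 1 := fun v hv hv' =>
    h.disj hv (l'.center hv' fun y hy => (a1 y hy v hv (l'.comm _ hy _ hv')).symm)
  have uc : ∀ v ∈ U, ∀ w ∈ U', v * w = w * v := fun v hv w hw => (l.cent _ (hle hw) _ hv).symm
  have nX' : C[U'] ≤ N[X'] := (centralizer_le_normalizer _).trans l'.norm
  have nX : C[U] ≤ N[X] := (centralizer_le_normalizer _).trans l.norm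
  have uC : U ≤ C[U'] := fun v hv => mem_centralizer_iff.2 fun w hw => (uc v hv w hw).symm
  have cm : ∀ g ∈ C[U'], ∀ x ∈ X', ⁅g, x⁆ ∈ X' := fun g hg x hx =>
    ce_of_conj hx (conj_mem_of_mem_normalizer (nX' hg) hx)
  have a3 : ∀ x ∈ X', ∀ v ∈ U, v ≠ 1 → x * v = v * x → x ∈ C[U] := fun x hx v hv h1 e =>
    mem_centralizer_iff.2 fun u hu => ce_one.1 (a2 _ (pg_commutatorElement_mem_symm
      (ce_of_conj hu (conj_mem_of_mem_normalizer (l.nrm hv h1 e) hu))) (cm u (uC hu) x hx))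
  have a3' : ∀ v ∈ U, v ≠ 1 → ∀ x ∈ X', ⁅v, x⁆ ∈ C[U] := fun v hv h1 x hx =>
    a3 _ (cm v (uC hv) x hx) v hv h1 (a1 _ (cm v (uC hv) x hx) v hv (by
      have e : ⁅⁅v, x⁆, v⁆ = ⁅v, x⁆ * ⁅v, x⁆ := by
        simp only [commutatorElement_def, mul_inv_rev, inv_inv, l.inv hv, mul_assoc, l.sq v hv, mul_one]
      exact e ▸ l'.sq_mem (cm v (uC hv) x hx)))
  have a4 : ∀ v ∈ U, v ≠ 1 → ∀ y ∈ X', (∀ x ∈ X', ⁅v, x⁆ * y = y * ⁅v, x⁆) → y ∈ C[U] :=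
    fun v hv h1 y hy e => a3 y hy v hv h1 (a1 y hy v hv (pg_commutatorElement_mem_symm
      (l'.center (cm v (uC hv) y hy) fun x hx =>
        (l'.adj (uc v hv) (nX' (uC hv)) hx hy (by rw [l.inv hv]; exact e x hx)).symm)))
  have a6 : ∀ r ∈ X ⊓ C[U'], ∀ y ∈ X' ⊓ C[U], ⁅r, y⁆ ∈ U' := fun r hr y hy => by
    have h1 := cm r hr.2 y hy.1
    have h2 : ⁅r, y⁆ ∈ X := pg_commutatorElement_mem_symm
      (ce_of_conj hr.1 (conj_mem_of_mem_normalizer (nX hy.2) hr.1))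
    obtain ⟨w, hw, e⟩ := h.center_R hle h2 fun z hz =>
      (ce_one.1 (a2 _ (l.comm _ hz.1 _ h2) (cm z hz.2 _ h1))).symm
    rw [mul_eq_one_iff_eq_inv.1 (a2 _ e (mul_mem h1 (l'.le hw)))]
    exact inv_mem hw
  obtain ⟨v, hv, v1⟩ := h.exists_ne_one
  have a7 : ∀ r ∈ X ⊓ C[U'], ∀ x ∈ X', ⁅r, x⁆ ∈ X' ⊓ C[U] := fun r hr x hx =>
    ⟨cm r hr.2 x hx, a4 v hv v1 _ (cm r hr.2 x hx) fun z hz =>
      l'.adj (fun u hu => (mem_centralizer_iff.1 hr.2 u hu).symm) (nX' hr.2) (cm v (uC hv) z hz) hx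
        (l'.cent _ hx _
          (a6 _ (inv_mem hr) _ ⟨cm v (uC hv) z hz, a3' v hv v1 z hz⟩)).symm⟩
  have b1 : ⁅⁅X ⊓ C[U'], X'⁆, X ⊓ C[U']⁆ ≤ U' :=
    (commutator_mono (commutator_le.2 a7) le_rfl).trans (commutator_le.2 fun y hy r hr =>
      pg_commutatorElement_mem_symm (a6 r hr y hy))
  have nR : X ⊓ C[U'] ≤ N[U'] := inf_le_right.trans (centralizer_le_normalizer _)
  have b2 := commutator_commutator_le_of_rotate nR nR l'.le_norm b1 (by rwa [commutator_comm X'])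
  have a8 : ∀ r ∈ X ⊓ C[U'], ∃ w ∈ U', r * w ∈ U := fun r hr => h.center_R hle hr.1 fun s hs =>
    ce_one.1 (a2 _ (l.comm _ hr.1 _ hs.1) (l'.faith _ (uc _ (l.comm _ hr.1 _ hs.1)) fun y hy =>
      b2 (commutator_mem_commutator (commutator_mem_commutator hr hs) hy)))
  obtain ⟨g, rfl, rfl⟩ := h.cj
  have h₁ := h.conj g
  have le₁ : g •ᶜ g •ᶜ U ≤ g •ᶜ X := map_mono hle
  have a9 : ∀ r ∈ g •ᶜ X, ∀ x ∈ g •ᶜ g •ᶜ U, x ≠ 1 → r * x = x * r →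
      ∃ w ∈ g •ᶜ g •ᶜ U, r * w ∈ g •ᶜ U := fun r hr x hx h1 e => by
    have : r ∈ g •ᶜ (X ⊓ C[g •ᶜ U]) := by
      rw [conj_inf, conj_centralizer]
      exact ⟨hr, mem_centralizer_iff.2 fun w hw => (h₁.cent_X le₁ hr hx h1 e w hw).symm⟩
    obtain ⟨r, hr', rfl⟩ := this
    obtain ⟨w, hw, e⟩ := a8 r hr'
    exact ⟨_, ⟨w, hw, rfl⟩, ⟨_, e, map_mul _ _ _⟩⟩
  have inv : ∀ x ∈ g •ᶜ X, x * x = 1 → ⁅v, x⁆ * x = x * ⁅v, x⁆ := fun x hx e => by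
    have h1 : Commute v ⁅v, x⁆ := mem_centralizer_iff.1 (a3' v hv v1 x hx) v hv
    have h2 : Commute (v * x) ⁅v, x⁆ := by
      rw [commutatorElement_def, l.inv hv, inv_eq_of_mul_eq_one_right e, mul_assoc (v * x)]
      exact (Commute.refl _).mul_right (Commute.refl _)
    simpa using (h1.inv_left.mul_left h2).symm.eq
  have fin : ∀ x ∈ g •ᶜ X, ⁅v, x⁆ ∈ g •ᶜ U → x * v = v * x := fun x hx e =>
    a1 x hx v hv (pg_commutatorElement_mem_symm e)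
  have c1 : ∀ x ∈ g •ᶜ g •ᶜ U, x * v = v * x := fun x hx => by
    by_cases x1 : x = 1
    · simp [x1]
    obtain ⟨w, hw, e⟩ := a9 _ (cm v (uC hv) x (le₁ hx)) x hx x1 (inv x (le₁ hx) (h₁.loc'.sq x hx))
    by_cases w1 : w = 1
    · exact fin x (le₁ hx) (by simpa [w1] using e)
    by_cases e' : U = g •ᶜ g •ᶜ U
    · exact l.cent x (l.le (e' ▸ hx)) v hv
    refine (h.of_conj g e').symm.cent_of_norm (fun u hu => h₁.loc'.nrm hw w1 ?_) x hx v hv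
    have h1 : Commute u ⁅v, x⁆ := mem_centralizer_iff.1 (a3' v hv v1 x (le₁ hx)) u hu
    have h2 : Commute u (⁅v, x⁆ * w) := uc u hu _ e
    simpa only [inv_mul_cancel_left] using (h1.inv_right.mul_right h2).eq
  obtain ⟨U₂, X₂, h₂, le₂, nd⟩ := h₁.exists_third le₁
  obtain ⟨x₁, hx₁, n₁⟩ := h₁.symm.exists_ne_one
  have c2 : ∀ x ∈ U₂, x * v = v * x := fun x hx => by
    obtain ⟨w, hw, e⟩ := a9 _ (cm v (uC hv) x (le₂ hx)) x₁ hx₁ n₁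
      (l'.adj (uc v hv) (nX' (uC hv)) (le₁ hx₁) (le₂ hx)
        (by rw [l.inv hv, ce_one.2 (c1 _ hx₁).symm]; simp)).symm
    have h1 : Commute ⁅v, x⁆ x := inv x (le₂ hx) (h₂.loc'.sq x hx)
    have h2 : Commute (⁅v, x⁆ * w) x := (l'.cent _ (le₂ hx) _ e).symm
    rcases nd w hw x hx (by simpa only [inv_mul_cancel_left] using (h1.inv_left.mul_left h2).eq) with rfl | rfl
    · exact fin x (le₂ hx) (by simpa using e)
    · simp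
  refine v1 (a2 v hv (l'.faith v (uc v hv) fun y hy => ?_))
  obtain ⟨z, hz, e⟩ := h₁.exists_mul le₁ h₂ le₂ nd hy
  obtain ⟨w, hw, e'⟩ := a9 _ (mul_mem hy (le₂ hz)) x₁ hx₁ n₁ (e _ hx₁)
  have h1 : Commute v (y * z * w) := uc v hv _ e'
  have h2 : Commute v z := (c2 z hz).symm
  have h3 : Commute v w := (c1 w hw).symm
  rw [ce_one.2 (by simpa using ((h1.mul_right h3.inv_right).mul_right h2.inv_right).eq)]
  exact one_mem _

theorem exists_inv {y : G} (hy : y ∈ X) (hn : ¬ ∀ w ∈ U', y * w = w * y) :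
    ∃ p ∈ X', ∀ x ∈ U', ⁅p, ⁅y, x⁆⁆ = x := by
  obtain ⟨x₀, hx₀, h1⟩ := h.symm.exists_ne_one
  have hv := h.loc.comm _ hy _ (hle hx₀)
  have v1 : ⁅y, x₀⁆ ≠ 1 := fun c => hn (h.cent_X hle hy hx₀ h1 (ce_one.1 c))
  obtain ⟨p, hp, e⟩ := h.symm.tr (h.le_symm hle) hv v1 hx₀
  have h2 := h.of_conj y fun c => h.ne (conj_inj.1
    ((conj_eq_iff_mem_normalizer.2 (h.loc.le_norm hy)).trans c))
  have e2 := (h2.eq_of (g := p) hv v1 (by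
    rw [conj_eq_ce, e, h.loc.cent _ (hle hx₀) _ hv, ← conj_eq_ce]; exact conj_mem_conj hx₀ y)).1
  have h3 : Two U' X' (y •ᶜ U') (y •ᶜ X') := ⟨h.loc', ⟨y, rfl, rfl⟩, fun c =>
    v1 (h.disj hv (ce_of_conj hx₀ (c.ge (conj_mem_conj hx₀ y))))⟩
  refine ⟨p, hp, fun x hx => ?_⟩
  have hu := h.loc.comm _ hy _ (hle hx)
  have := mul_mem (e2 ▸ conj_mem_conj hu p :) (conj_mem_conj hx y)
  rw [conj_eq_ce, conj_eq_ce y, mul_assoc, ← mul_assoc ⁅y, x⁆, h.loc.sq _ hu, one_mul] at this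
  rw [mul_eq_one_iff_eq_inv.1 (h3.disj (mul_mem (h.loc'.comm _ hp _ (h.le_symm hle hu)) hx) this),
    h.loc'.inv hx]

/-- the inverses of the maps `x ↦ ⁅y, x⁆` are closed under addition -/
theorem bol {U₂ X₂ : Subgroup G} (h₂ : Two U X U₂ X₂) (le₂ : U₂ ≤ X)
    (nd : ∀ x ∈ U', ∀ y ∈ U₂, x * y = y * x → x = 1 ∨ y = 1) {y₁ y₂ : G} (h1 : y₁ ∈ U₂) (h2 : y₂ ∈ U₂)
    (n1 : y₁ ≠ 1) (n2 : y₂ ≠ 1) :
    (∀ x₁ ∈ U', ∀ x₂ ∈ U', ⁅y₁, x₁⁆ = ⁅y₂, x₂⁆ → x₁ * x₂ = 1) ∨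
      ∃ y₃ ∈ U₂, ∀ x₁ ∈ U', ∀ x₂ ∈ U', ⁅y₁, x₁⁆ = ⁅y₂, x₂⁆ → ⁅y₃, x₁ * x₂⁆ = ⁅y₁, x₁⁆ := by
  obtain ⟨x₀, hx₀, n0⟩ := h.symm.exists_ne_one
  obtain ⟨p₁, hp₁, e₁⟩ := h.exists_inv hle (le₂ h1) fun c => (nd _ hx₀ _ h1 (c _ hx₀).symm).elim n0 n1
  obtain ⟨p₂, hp₂, e₂⟩ := h.exists_inv hle (le₂ h2) fun c => (nd _ hx₀ _ h2 (c _ hx₀).symm).elim n0 n2
  have key : ∀ x₁ ∈ U', ∀ x₂ ∈ U', ⁅y₁, x₁⁆ = ⁅y₂, x₂⁆ → ⁅p₂ * p₁, ⁅y₁, x₁⁆⁆ = x₁ * x₂ :=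
    fun x₁ a x₂ b e => by rw [h.loc'.mul_left hp₂ ((e₁ x₁ a).symm ▸ a), e₁ x₁ a, e, e₂ x₂ b]
  by_cases c : ∀ u ∈ U, p₂ * p₁ * u = u * (p₂ * p₁)
  · exact Or.inl fun x₁ a x₂ b e => by
      rw [← key x₁ a x₂ b e, ce_one.2 (c _ (h.loc.comm _ (le₂ h1) _ (hle a)))]
  · obtain ⟨y, hy, e⟩ := h.symm.exists_inv (h.le_symm hle) (mul_mem hp₂ hp₁) c
    obtain ⟨z, hz, e'⟩ := h.exists_mul hle h₂ le₂ nd hy
    refine Or.inr ⟨z, hz, fun x₁ a x₂ b e'' => ?_⟩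
    have h3 := ce_one.2 (e' _ (mul_mem a b))
    have h4 := h.loc.comm _ (le₂ hz) _ (hle (mul_mem a b))
    rw [h.loc.mul_left hy h4, mul_eq_one_iff_inv_eq, h.loc.inv h4] at h3
    rw [h3, ← key x₁ a x₂ b e'', e _ (h.loc.comm _ (le₂ h1) _ (hle a))]

end Two

end Cfsg.Lib.TIE
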