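import Cfsg.Agent.Lib.Misc.TIElem
import Cfsg.Agent.Lib.Misc.AltRing
import Cfsg.Agent.Lib.Core.SLn

/-!
`⟨X, X'⟩` induces `SL(2, |U|)` on `U U'`.
-/

set_option autoImplicit false

namespace Cfsg.Lib.TIE
open Subgroup Cfsg.Lib Cfsg.Lib.FT
open scoped commutatorElement IsMulCommutative

variable {G : Type*} [Group G]

/-- the elements acting by conjugation like elements of `S` -/
def actsLike (S : Type*) {Ω : Type*} [Group S] [MulAction S Ω] (κ : Ω → G) : Subgroup G where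
  carrier := {g | ∃ M : S, ∀ x, g * κ x * g⁻¹ = κ (M • x)}
  one_mem' := ⟨1, by simp⟩
  mul_mem' := by
    rintro a b ⟨M, hM⟩ ⟨N, hN⟩
    exact ⟨M * N, fun x => by rw [mul_smul, ← hM, ← hN]; group⟩
  inv_mem' := by
    rintro a ⟨M, hM⟩
    exact ⟨M⁻¹, fun x => by rw [← smul_inv_smul M x, ← hM, inv_smul_smul]; group⟩

theorem quot_equiv_of_graph {S Ω : Type*} [Group S] [MulAction S Ω]
    (hf : ∀ M N : S, (∀ x : Ω, M • x = N • x) → M = N) {κ : Ω → G} (hκ : Function.Injective κ)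
    {H : Subgroup G} (hH : H ≤ actsLike S κ) (hS : ∀ M : S, ∃ g ∈ H, ∀ x, g * κ x * g⁻¹ = κ (M • x))
    (N : Subgroup H) [N.Normal] (hN : ∀ g : H, g ∈ N ↔ ∀ x, g * κ x * (g : G)⁻¹ = κ x) :
    Nonempty (H ⧸ N ≃* S) := by
  choose ρ hρ using fun g : H => hH g.2
  let f : H →* S := MonoidHom.mk' ρ fun a b => hf _ _ fun x => hκ (by
    rw [mul_smul, ← hρ, ← hρ, ← hρ]; simp [mul_assoc])
  have hs : Function.Surjective f := fun M => by
    obtain ⟨g, hg, e⟩ := hS M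
    exact ⟨⟨g, hg⟩, hf _ _ fun x => hκ ((hρ _ x).symm.trans (e x))⟩
  have hk : N = f.ker := Subgroup.ext fun g => (hN g).trans
    ⟨fun e => hf _ _ fun x => hκ ((hρ g x).symm.trans ((e x).trans (by simp))),
      fun e x => (hρ g x).trans (by rw [show ρ g = 1 from e, one_smul])⟩
  exact ⟨(QuotientGroup.quotientMulEquivOfEq hk).trans (QuotientGroup.quotientKerEquivOfSurjective f hs)⟩

theorem Loc.isComm {U X : Subgroup G} (h : Loc U X) : IsMulCommutative U :=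
  isMulCommutative_of_forall fun a ha b hb => h.cent a (h.le ha) b hb

namespace Two

variable [Finite G] {U X U' X' : Subgroup G} (h : Two U X U' X') (hle : U' ≤ X)
include h hle

theorem exists_coord : ∃ (F : Type) (_ : Field F) (_ : Fintype F) (s : F ≃ U) (t : F ≃ U')
    (r : F → G), (∀ x y, s (x + y) = s x * s y) ∧ (∀ x y, t (x + y) = t x * t y) ∧ (∀ x, r x ∈ X) ∧
      (∀ x y, ⁅r y, (t x : G)⁆ = s (x * y)) ∧ ∀ p ∈ X, ∃ y, ∀ x, ⁅p, (t x : G)⁆ = s (x * y) := by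
  obtain ⟨U₂, X₂, h₂, le₂, nd⟩ := h.exists_third hle
  have := h.loc.isComm
  have := h.loc'.isComm
  have := h₂.loc'.isComm
  have : Nontrivial U' := (nontrivial_iff_exists_ne_one U').2 h.symm.exists_ne_one
  have : Nontrivial U₂ := (nontrivial_iff_exists_ne_one U₂).2 h₂.symm.exists_ne_one
  have m : ∀ (x : U') (y : U₂), ⁅(y : G), (x : G)⁆ ∈ U := fun x y => h.loc.comm _ (le₂ y.2) _ (hle x.2)
  have ms := fun x y => h.loc.symm (m x y)
  let β : Additive U' →+ Additive U₂ →+ Additive U := AddMonoidHom.mk'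
    (fun x => AddMonoidHom.mk' (fun y => Additive.ofMul ⟨_, m x.toMul y.toMul⟩) fun y z =>
      Subtype.ext ((h.loc.mul_left (le₂ y.2) (m _ _)).trans (h.loc.cent _ (h.loc.le (m _ _)) _ (m _ _))))
    fun x z => AddMonoidHom.ext fun y => Subtype.ext (h.loc.mul_right (hle x.2) (m _ _))
  obtain ⟨F, _, _, a, b, c, e⟩ := Alt.exists_field β
    (fun x y e => (nd _ x.2 _ y.2 (ce_one.1 (congrArg Subtype.val e)).symm).imp Subtype.ext Subtype.ext)
    h.card h₂.card (fun u => Subtype.ext (h.loc.sq _ u.2))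
    (fun y₁ y₂ n1 n2 => (h.bol hle h₂ le₂ nd y₁.2 y₂.2 (fun c => n1 (Subtype.ext c)) (fun c => n2 (Subtype.ext c))).imp
      (fun e x₁ x₂ e' => Subtype.ext (e _ x₁.2 _ x₂.2 (congrArg Subtype.val e')))
      fun ⟨y, hy, e⟩ => ⟨Additive.ofMul ⟨y, hy⟩, fun x₁ x₂ e' =>
        Subtype.ext (e _ x₁.2 _ x₂.2 (congrArg Subtype.val e'))⟩)
    (fun y₁ y₂ n1 n2 => (h₂.bol le₂ h hle (fun x hx y hy e => (nd y hy x hx e.symm).symm) y₁.2 y₂.2
      (fun c => n1 (Subtype.ext c)) (fun c => n2 (Subtype.ext c))).imp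
      (fun e x₁ x₂ e' => Subtype.ext (e _ x₁.2 _ x₂.2 (((ms _ _).trans (congrArg Subtype.val e')).trans
        (ms _ _).symm)))
      fun ⟨y, hy, e⟩ => ⟨Additive.ofMul ⟨y, hy⟩, fun x₁ x₂ e' => Subtype.ext
        (((ms ⟨y, hy⟩ (x₁.toMul * x₂.toMul)).symm.trans (e _ x₁.2 _ x₂.2
          (((ms _ _).trans (congrArg Subtype.val e')).trans (ms _ _).symm))).trans (ms _ _))⟩)
  have e' : ∀ x y, ⁅((b y).toMul : G), ((a x).toMul : G)⁆ = (c (x * y)).toMul := fun x y =>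
    congrArg Subtype.val (e x y)
  refine ⟨F, _, inferInstance, c.toEquiv.trans Additive.toMul, a.toEquiv.trans Additive.toMul,
    fun y => (b y).toMul, c.map_add, a.map_add, fun y => le₂ (b y).2, e', fun p hp => ?_⟩
  obtain ⟨z, hz, e₁⟩ := h.exists_mul hle h₂ le₂ nd hp
  refine ⟨b.symm (Additive.ofMul ⟨z, hz⟩), fun x => ?_⟩
  have h3 := ce_one.2 (e₁ _ (a x).toMul.2)
  rw [h.loc.mul_left hp (m _ ⟨z, hz⟩), mul_eq_one_iff_inv_eq, h.loc.inv (m _ ⟨z, hz⟩)] at h3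
  exact h3.symm.trans (by simpa using e' x (b.symm (Additive.ofMul ⟨z, hz⟩)))

open Matrix.SpecialLinearGroup in
theorem exists_sl2 [(C[U ⊔ U'].subgroupOf (X ⊔ X')).Normal] :
    ∃ (F : Type) (_ : Field F) (_ : Fintype F), Fintype.card F = Nat.card U ∧
      Nonempty (↥(X ⊔ X') ⧸ C[U ⊔ U'].subgroupOf (X ⊔ X') ≃* Matrix.SpecialLinearGroup (Fin 2) F) := by
  obtain ⟨F, _, _, s, t, r, hs, ht, hr, e, e'⟩ := h.exists_coord hle
  have hle' := h.le_symm hle
  have s0 : s 0 = 1 := by simpa using hs 0 0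
  have t0 : t 0 = 1 := by simpa using ht 0 0
  let κ : (Fin 2 → F) → G := fun x => s (x 0) * t (x 1)
  have up : ∀ p ∈ X, ∀ y, (∀ x, ⁅p, (t x : G)⁆ = s (x * y)) →
      ∀ x, p * κ x * p⁻¹ = κ (transvection (zero_ne_one : (0 : Fin 2) ≠ 1) y • x) := fun p hp y e x => by
    rw [← conj_mul, h.loc.cent p hp _ (s _).2, mul_inv_cancel_right, conj_eq_ce, e, ← mul_assoc,
      ← Subgroup.coe_mul, ← hs]
    simp [κ, Matrix.SpecialLinearGroup.smul_def, transvection_coe, Matrix.mulVec, dotProduct, mul_comm]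
  have lo : ∀ p ∈ X', ∀ y, (∀ x, ⁅p, (s x : G)⁆ = t (x * y)) →
      ∀ x, p * κ x * p⁻¹ = κ (transvection (one_ne_zero : (1 : Fin 2) ≠ 0) y • x) := fun p hp y e x => by
    rw [← conj_mul, h.loc'.cent p hp _ (t _).2, mul_inv_cancel_right, conj_eq_ce, e,
      h.loc.cent _ (hle (t _).2) _ (s _).2, mul_assoc, ← Subgroup.coe_mul, ← ht]
    simp [κ, Matrix.SpecialLinearGroup.smul_def, transvection_coe, Matrix.mulVec, dotProduct, mul_comm]
  refine ⟨F, _, _, by rw [← Nat.card_eq_fintype_card, Nat.card_congr s], quot_equiv_of_graph (κ := κ)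
    (S := Matrix.SpecialLinearGroup (Fin 2) F)
    (fun M N e => Subtype.ext (Matrix.ext_of_mulVec_single fun i => e _)) (fun x y e => ?_)
    (sup_le (fun p hp => ?_) fun p hp => ?_) (sl_transvection_induction _ (fun i j hij y => ?_) ?_) _
    fun g => ⟨fun hg x => ?_, fun hg => ?_⟩⟩
  · have h1 : (s (y 0) : G)⁻¹ * s (x 0) = t (y 1) * (t (x 1) : G)⁻¹ := by
      rw [inv_mul_eq_iff_eq_mul, ← mul_assoc, eq_mul_inv_iff_mul_eq]; exact e
    have h2 := h.disj (mul_mem (inv_mem (s (y 0)).2) (s (x 0)).2) (h1 ▸ mul_mem (t _).2 (inv_mem (t _).2))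
    rw [h2, eq_mul_inv_iff_mul_eq, one_mul] at h1
    ext i
    fin_cases i
    · exact s.injective (Subtype.ext (inv_mul_eq_one.1 h2).symm)
    · exact t.injective (Subtype.ext h1)
  · obtain ⟨y, hy⟩ := e' p hp
    exact ⟨_, up p hp y hy⟩
  · by_cases c : ∀ u ∈ U, p * u = u * p
    · exact ⟨_, lo p hp 0 fun x => by rw [ce_one.2 (c _ (s x).2), mul_zero, t0, Subgroup.coe_one]⟩
    · obtain ⟨q, hq, e₁⟩ := h.symm.exists_inv hle' hp c
      obtain ⟨y, hy⟩ := e' q hq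
      have k : ∀ x, ∃ z, ⁅p, (s x : G)⁆ = t z ∧ z * y = x := fun x => by
        obtain ⟨z, hz⟩ := t.surjective ⟨_, h.loc'.comm _ hp _ (hle' (s x).2)⟩
        exact ⟨z, by rw [hz], s.injective (Subtype.ext (by rw [← hy, hz, e₁ _ (s x).2]))⟩
      refine ⟨_, lo p hp y⁻¹ fun x => ?_⟩
      obtain ⟨z, e₂, rfl⟩ := k x
      obtain ⟨z', -, e₃⟩ := k 1
      rw [e₂, mul_inv_cancel_right₀ (right_ne_zero_of_mul_eq_one e₃)]
  · have : (i = 0 ∧ j = 1) ∨ (i = 1 ∧ j = 0) := by omega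
    rcases this with ⟨rfl, rfl⟩ | ⟨rfl, rfl⟩
    · exact ⟨_, mem_sup_left (hr y), up _ (hr y) y fun x => e x y⟩
    · by_cases c : y = 0
      · exact ⟨1, one_mem _, lo 1 (one_mem _) y fun x => by simp [c, t0]⟩
      obtain ⟨p, hp, e₁⟩ := h.exists_inv hle (hr y⁻¹) fun c' => c (by
        have := e 1 y⁻¹
        rw [ce_one.2 (c' _ (t 1).2), ← Subgroup.coe_one, ← s0, Subtype.coe_inj, s.apply_eq_iff_eq] at this
        simpa using this.symm)
      refine ⟨p, mem_sup_right hp, lo p hp y fun x => ?_⟩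
      rw [← e₁ _ (t _).2, e, mul_inv_cancel_right₀ c]
  · rintro A B ⟨a, ha, e₁⟩ ⟨b, hb, e₂⟩
    exact ⟨_, mul_mem ha hb, fun x => by rw [mul_smul, ← e₁, ← e₂]; group⟩
  · rw [← mem_centralizer_iff.1 (mem_subgroupOf.1 hg) (κ x) (mul_mem_sup (s _).2 (t _).2),
      mul_inv_cancel_right]
  · rw [mem_subgroupOf, centralizer_sup]
    refine ⟨mem_centralizer_iff.2 fun u hu => ?_, mem_centralizer_iff.2 fun u hu => ?_⟩
    · exact (mul_inv_eq_iff_eq_mul.1 (by simpa [κ, t0] using hg ![s.symm ⟨u, hu⟩, 0])).symm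
    · exact (mul_inv_eq_iff_eq_mul.1 (by simpa [κ, s0] using hg ![0, t.symm ⟨u, hu⟩])).symm

end Two

end Cfsg.Lib.TIE
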