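import Cfsg.Agent.Lib.PGroup.CoprimeAut
import Cfsg.Agent.Lib.PGroup.KInfLocal
import Cfsg.Agent.Lib.Char.Burnside

/-! 2-groups with exactly three involutions: counting square roots. -/

set_option autoImplicit false

namespace Cfsg.Lib.ThreeInv

open Subgroup Finset
open scoped commutatorElement

/-- the quadratic character sum -/
theorem quad_sum {E : Type*} [Group E] [Fintype E] (s : E → ℤ) (b : E → E → ℤ)
    (hs : ∀ x, s x * s x = 1) (hsb : ∀ x y, s (x * y) = s x * s y * b x y)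
    (h1 : ∀ x x' y, b (x * x') y = b x y * b x' y) (h2 : ∀ x y y', b x (y * y') = b x y * b x y')
    (hb1 : ∀ y, b 1 y = 1) (hb2 : ∀ x, b x 1 = 1) (hs1 : s 1 = 1) :
    ∃ R : Subgroup E, (∀ z, (∀ x, b x z = 1) → z ∈ R) ∧
      ((∑ x, s x) ^ 2 = 0 ∨ (∑ x, s x) ^ 2 = Nat.card E * Nat.card R) := by
  classical
  let R : Subgroup E :=
    { carrier := {z | ∀ x, b x z = 1}
      one_mem' := hb2
      mul_mem' := fun {y y'} hy hy' x => by rw [h2, hy x, hy' x, one_mul]
      inv_mem' := fun {y} hy x => by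
        have := h2 x y y⁻¹
        rwa [mul_inv_cancel, hb2, hy x, one_mul, eq_comm] at this }
  have hR : ∀ z, z ∈ R ↔ ∀ x, b x z = 1 := fun z => Iff.rfl
  refine ⟨R, fun z hz => hz, ?_⟩
  have e1 : (∑ x, s x) ^ 2 = ∑ z, s z * ∑ x, b x z := by
    rw [sq, Finset.sum_mul]
    have : ∀ x, s x * ∑ y, s y = ∑ z, s z * b x z := fun x => by
      rw [Finset.mul_sum, ← Equiv.sum_comp (Equiv.mulLeft x)]
      refine Finset.sum_congr rfl fun z _ => ?_
      rw [Equiv.coe_mulLeft, hsb]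
      linear_combination (s z * b x z) * hs x
    simp_rw [this, Finset.mul_sum]
    exact Finset.sum_comm
  have e2 : ∀ z, ∑ x, b x z = if z ∈ R then (Nat.card E : ℤ) else 0 := fun z => by
    let f : E →* ℤ := ⟨⟨fun x => b x z, hb1 z⟩, fun x x' => h1 x x' z⟩
    have := sum_hom_units f
    change ∑ x, b x z = _ at this
    rw [this]
    by_cases hz : z ∈ R
    · rw [if_pos hz, if_pos (MonoidHom.ext fun x => (hR z).1 hz x), Nat.card_eq_fintype_card]
    · rw [if_neg hz, if_neg fun e => hz fun x => DFunLike.congr_fun e x, Nat.cast_zero]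
  let g : R →* ℤ := ⟨⟨fun z => s z, hs1⟩, fun z z' => by
    change s (z * z') = s z * s z'
    rw [hsb, (hR z').1 z'.2, mul_one]⟩
  have e3 : (∑ x, s x) ^ 2 = Nat.card E * ∑ z : R, g z := by
    rw [e1]
    simp_rw [e2, mul_ite, mul_zero]
    rw [← Finset.sum_filter, Finset.mul_sum]
    rw [Finset.sum_subtype (p := fun z => z ∈ R) _ (fun x => by simp)]
    exact Finset.sum_congr rfl fun z _ => mul_comm _ _
  rw [e3, sum_hom_units g]
  split_ifs
  · right; rw [Nat.card_eq_fintype_card (α := R)]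
  · left; simp

/-- possible numbers of square roots -/
def okL : ℕ → List ℕ
  | 2 => [0]
  | 3 => [0, 4]
  | 4 => [0, 4, 8, 12]
  | 5 => [4, 12, 20, 28]
  | 6 => [12, 20, 28, 36, 44, 60]
  | _ => []

set_option synthInstance.maxSize 2048 in
set_option synthInstance.maxHeartbeats 200000 in
theorem num1 : ∀ e < 7, ∀ r < 7, ∀ N : ℕ, N < 61 → 2 ≤ r → r ≤ e → N + 4 ≤ 2 ^ e →
    ((8 + 2 * (N : ℤ) - 2 ^ e) ^ 2 = 0 ∨ (8 + 2 * (N : ℤ) - 2 ^ e) ^ 2 = 2 ^ e * 2 ^ r) →
    N ∈ okL e := by decide +kernel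

theorem num0 {S : ℤ} {e r : ℕ} (he : 7 ≤ e) (hr : 2 ≤ r) (h : S ^ 2 = 0 ∨ S ^ 2 = 2 ^ e * 2 ^ r) :
    32 ∣ S := by
  have h1 : (512 : ℤ) ∣ S ^ 2 := by
    rcases h with h | h
    · rw [h]; exact dvd_zero _
    · rw [h, ← pow_add]; exact pow_dvd_pow 2 (show 9 ≤ e + r by omega)
  have h2 : (16 : ℤ) ∣ S := (Int.pow_dvd_pow_iff (n := 2) (by norm_num)).1 (Dvd.dvd.trans (by norm_num) h1)
  obtain ⟨t, rfl⟩ := h2
  have h3 : (2 : ℤ) ∣ t ^ 2 := by
    have : (256 * 2 : ℤ) ∣ 256 * t ^ 2 := by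
      have e : (16 * t) ^ 2 = 256 * t ^ 2 := by ring
      rwa [e] at h1
    exact (mul_dvd_mul_iff_left (by norm_num)).1 this
  obtain ⟨w, rfl⟩ := Int.prime_two.dvd_of_dvd_pow h3
  exact ⟨w, by ring⟩

def sols : List (ℕ × ℕ × ℕ) :=
  (List.range 7).flatMap fun e => (okL e).flatMap fun a => (okL e).flatMap fun b =>
    ((okL e).filter fun c => a + b + c + 4 = 2 ^ e).map fun c => (a, b, c)

theorem mem_sols {e a b c : ℕ} (he : e < 7) (ha : a ∈ okL e) (hb : b ∈ okL e) (hc : c ∈ okL e)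
    (h : a + b + c + 4 = 2 ^ e) : (a, b, c) ∈ sols := by
  simp only [sols, List.mem_flatMap, List.mem_map, List.mem_filter, List.mem_range, decide_eq_true_eq]
  exact ⟨e, he, a, ha, b, hb, c, ⟨hc, h⟩, rfl⟩

theorem num2 : ∀ x ∈ sols, ∀ y ∈ sols, ∀ p < 61, y.1 + y.2.1 + y.2.2 < x.1 + x.2.1 + x.2.2 →
    x.1 % p = y.1 % p → x.2.1 % p = y.2.1 % p → x.2.2 % p = y.2.2 % p → p % 2 = 1 →
    p = 1 ∨ p = if x = (20, 20, 20) then 5 else 3 := by decide +kernel

theorem sols_le : ∀ x ∈ sols, x.1 + x.2.1 + x.2.2 ≤ 60 := by decide +kernel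

variable {X : Type*} [Group X]

/-- number of square roots of `u` in `E` -/
noncomputable def cnt (E : Subgroup X) (u : X) : ℕ := Nat.card {x : X // x ∈ E ∧ x * x = u}

theorem cnt_eq [Fintype X] (E : Subgroup X) (u : X) [DecidablePred fun x : E => (x : X) * x = u]
    [Fintype E] : cnt E u = #{x : E | (x : X) * x = u} := by
  rw [cnt, ← Fintype.card_subtype, ← Nat.card_eq_fintype_card]
  exact Nat.card_congr ⟨fun x => ⟨⟨x.1, x.2.1⟩, x.2.2⟩, fun x => ⟨x.1.1, x.1.2, x.2⟩,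
    fun _ => rfl, fun _ => rfl⟩

/-- the involutions together with `1` form the four-group generated by `u` and `v` -/
structure Four (u v : X) : Prop where
  u1 : u ≠ 1
  v1 : v ≠ 1
  vu : v ≠ u
  iff : ∀ x : X, x * x = 1 ↔ x = 1 ∨ x = u ∨ x = v ∨ x = u * v

namespace Four

variable {u v : X}

theorem uu (h : Four u v) : u * u = 1 := (h.iff u).2 (by simp)
theorem vv (h : Four u v) : v * v = 1 := (h.iff v).2 (by simp)
theorem ww (h : Four u v) : u * v * (u * v) = 1 := (h.iff _).2 (by simp)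
theorem comm (h : Four u v) : v * u = u * v := by
  have h1 := h.ww
  calc v * u = u * u * (v * u) * (v * v) := by rw [h.uu, h.vv]; simp
    _ = u * (u * v * (u * v)) * v := by simp only [mul_assoc]
    _ = u * v := by rw [h1, mul_one]
theorem uw (h : Four u v) : u * (u * v) = v := by rw [← mul_assoc, h.uu, one_mul]
theorem vw (h : Four u v) : v * (u * v) = u := by rw [← h.comm, ← mul_assoc, h.vv, one_mul]
theorem wu (h : Four u v) : u * v * u = v := by rw [mul_assoc, h.comm, h.uw]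
theorem wv (h : Four u v) : u * v * v = u := by rw [mul_assoc, h.vv, mul_one]
theorem w1 (h : Four u v) : u * v ≠ 1 := fun e => h.vu (by rw [← h.uw, e, mul_one])
theorem wu' (h : Four u v) : u * v ≠ u := fun e => h.v1 (by simpa using e)
theorem wv' (h : Four u v) : u * v ≠ v := fun e => h.u1 (by simpa using e)

theorem swap (h : Four u v) : Four v u :=
  ⟨h.v1, h.u1, h.vu.symm, fun x => by rw [h.iff, h.comm]; tauto⟩

theorem rot (h : Four u v) : Four (u * v) u :=
  ⟨h.w1, h.u1, h.wu'.symm, fun x => by rw [h.iff, h.wu]; tauto⟩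

theorem mul (h : Four u v) {x y : X} (hx : x * x = 1) (hy : y * y = 1) : x * y * (x * y) = 1 := by
  rw [h.iff] at *
  rcases hx with rfl | rfl | rfl | rfl <;> rcases hy with rfl | rfl | rfl | rfl <;>
    simp [h.uu, h.vv, h.ww, h.comm, h.uw, h.vw, h.wu, h.wv]

open Classical in
theorem lam (h : Four u v) {x y : X} (hx : x * x = 1) (hy : y * y = 1) :
    (if x * y = 1 ∨ x * y = u then (1 : ℤ) else -1) =
      (if x = 1 ∨ x = u then 1 else -1) * (if y = 1 ∨ y = u then 1 else -1) := by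
  rw [h.iff] at hx hy
  have := h.u1; have := h.v1; have := h.vu; have := h.w1; have := h.wu'
  rcases hx with rfl | rfl | rfl | rfl <;> rcases hy with rfl | rfl | rfl | rfl <;>
    simp [h.uu, h.vv, h.ww, h.comm, h.uw, h.vw, h.wu, h.wv, *]

theorem cnt_one [Finite X] (h : Four u v) {E : Subgroup X} (hu : u ∈ E) (hv : v ∈ E) :
    cnt E 1 = 4 := by
  classical
  have : {x : X | x ∈ E ∧ x * x = 1} = {1, u, v, u * v} := by
    ext x
    simp only [Set.mem_ofPred_eq, h.iff, Set.mem_insert_iff, Set.mem_singleton_iff,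
      and_iff_right_iff_imp]
    rintro (rfl | rfl | rfl | rfl)
    exacts [E.one_mem, hu, hv, E.mul_mem hu hv]
  change Set.ncard {x : X | x ∈ E ∧ x * x = 1} = 4
  rw [this]
  have := h.u1; have := h.v1; have := h.vu.symm; have := h.w1; have := h.wu'; have := h.wv'
  rw [Set.ncard_insert_of_notMem (by simp [eq_comm, *]), Set.ncard_insert_of_notMem (by simp [eq_comm, *]),
    Set.ncard_pair (by simp [eq_comm, *])]

theorem one [Finite X] (h : Four u v) {E : Subgroup X} (hu : u ∈ E) (hv : v ∈ E)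
    (h4 : ∀ x ∈ E, x * x * (x * x) = 1) (hc : ∀ w : X, w * w = 1 → ∀ x ∈ E, w * x = x * w)
    {e : ℕ} (he : Nat.card E = 2 ^ e) :
    ∃ r, 2 ≤ r ∧ r ≤ e ∧ ((8 + 2 * (cnt E u : ℤ) - 2 ^ e) ^ 2 = 0 ∨
      (8 + 2 * (cnt E u : ℤ) - 2 ^ e) ^ 2 = 2 ^ e * 2 ^ r) := by
  classical
  haveI := Fintype.ofFinite X
  obtain ⟨l, hl⟩ : ∃ l : X → ℤ, ∀ x, l x = if x = 1 ∨ x = u then 1 else -1 := ⟨_, fun _ => rfl⟩
  have lm : ∀ {x y : X}, x * x = 1 → y * y = 1 → l (x * y) = l x * l y := fun hx hy => by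
    rw [hl, hl, hl]; exact h.lam hx hy
  have l1 : l 1 = 1 := by rw [hl]; simp
  obtain ⟨c, hcd⟩ : ∃ c : X → X → X, ∀ x y, c x y = x⁻¹ * y * x * y⁻¹ := ⟨_, fun _ _ => rfl⟩
  have cU : ∀ x ∈ E, ∀ y ∈ E, c x y * c x y = 1 := fun x hx y hy => by
    have e : c x y = (x⁻¹ * x⁻¹) * (x * y * (x * y)) * (y⁻¹ * y⁻¹) := by rw [hcd]; group
    rw [e]
    exact h.mul (h.mul (h4 _ (E.inv_mem hx)) (h4 _ (E.mul_mem hx hy))) (h4 _ (E.inv_mem hy))
  obtain ⟨R, hR, hS⟩ := quad_sum (E := E) (fun x => l (x * x)) (fun x y => l (c x y))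
    (fun x => by rw [hl]; split_ifs <;> norm_num)
    (fun x y => by
      have e : ((x * y : E) : X) * (x * y : E) = x * x * (y * y) * c x y := by
        rw [mul_assoc, ← hc _ (cU _ x.2 _ y.2) _ (E.mul_mem y.2 y.2), hcd, Subgroup.coe_mul]; group
      rw [e, lm (h.mul (h4 _ x.2) (h4 _ y.2)) (cU _ x.2 _ y.2), lm (h4 _ x.2) (h4 _ y.2)])
    (fun x x' y => by
      have e : c (x * x' : E) y = c x y * c x' y := by
        have := hc _ (cU _ x.2 _ y.2) _ (E.inv_mem x'.2)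
        rw [hcd x', ← mul_assoc, ← mul_assoc, ← mul_assoc, this, hcd, hcd, Subgroup.coe_mul]; group
      rw [e, lm (cU _ x.2 _ y.2) (cU _ x'.2 _ y.2)])
    (fun x y y' => by
      have e : c x (y * y' : E) = c x y * c x y' := by
        have := hc _ (cU _ x.2 _ y'.2) _ y.2
        calc c x (y * y' : E) = c x y * (y * c x y') * (y : X)⁻¹ := by
              rw [hcd, hcd, hcd, Subgroup.coe_mul]; group
          _ = _ := by rw [← this]; group
      rw [e, lm (cU _ x.2 _ y.2) (cU _ x.2 _ y'.2)])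
    (fun y => by simp [hcd, l1]) (fun y => by simp [hcd, l1]) (by simp [l1])
  obtain ⟨r, hr, hr'⟩ := (Nat.dvd_prime_pow Nat.prime_two).1 (he ▸ card_subgroup_dvd_card R)
  have hsum : ∑ x : E, l (x * x) = 8 + 2 * (cnt E u : ℤ) - 2 ^ e := by
    have e1 : ∀ x : E, l (x * x) = 2 * (if (x : X) * x = 1 then 1 else 0) +
        2 * (if (x : X) * x = u then 1 else 0) - 1 := fun x => by
      rw [hl]
      by_cases h1 : (x : X) * x = 1
      · simp [h1, h.u1.symm]
      · by_cases h2 : (x : X) * x = u <;> simp [h1, h2, h.u1]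
    simp_rw [e1]
    rw [Finset.sum_sub_distrib, Finset.sum_add_distrib, ← Finset.mul_sum, ← Finset.mul_sum,
      Finset.sum_boole, Finset.sum_boole, ← cnt_eq, ← cnt_eq, h.cnt_one hu hv]
    simp [← Nat.card_eq_fintype_card, he]
  refine ⟨r, ?_, hr, ?_⟩
  · have : 4 ≤ Nat.card R := by
      rw [← h.cnt_one hu hv, cnt]
      refine Nat.card_le_card_of_injective (fun x => ⟨⟨x.1, x.2.1⟩, hR _ fun y => ?_⟩) ?_
      · simp only
        rw [hcd, mul_assoc (y : X)⁻¹, hc _ x.2.2 _ y.2]; simp [l1]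
      · intro x y e
        exact Subtype.ext (congrArg (fun t : R => ((t : E) : X)) e)
    by_contra hlt
    have : r ≤ 1 := by omega
    have := Nat.pow_le_pow_right (show 0 < 2 by norm_num) this
    omega
  · rw [hsum, he, hr'] at hS
    simpa using hS

theorem cnt_sum [Finite X] (h : Four u v) {E : Subgroup X} (hu : u ∈ E) (hv : v ∈ E)
    (h4 : ∀ x ∈ E, x * x * (x * x) = 1) :
    cnt E u + cnt E v + cnt E (u * v) + 4 = Nat.card E := by
  classical
  haveI := Fintype.ofFinite X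
  rw [← h.cnt_one hu hv, cnt_eq, cnt_eq, cnt_eq, cnt_eq, Nat.card_eq_fintype_card]
  simp only [Finset.card_filter, ← Finset.sum_add_distrib]
  rw [Fintype.card_eq_sum_ones]
  refine Finset.sum_congr rfl fun x _ => ?_
  have := h.u1; have := h.v1; have := h.vu.symm; have := h.w1; have := h.wu'; have := h.wv'
  rcases (h.iff _).1 (h4 _ x.2) with e | e | e | e <;> rw [e] <;> simp [eq_comm, *]

theorem core [Finite X] (hX : IsPGroup 2 X) (h : Four u v) {E : Subgroup X} (hu : u ∈ E) (hv : v ∈ E)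
    (h4 : ∀ x ∈ E, x * x * (x * x) = 1) (hc : ∀ w : X, w * w = 1 → ∀ x ∈ E, w * x = x * w) :
    (cnt E u, cnt E v, cnt E (u * v)) ∈ sols := by
  obtain ⟨e, he⟩ := IsPGroup.iff_card.1 (hX.to_subgroup E)
  obtain ⟨r1, a1, b1, c1⟩ := h.one hu hv h4 hc he
  obtain ⟨r2, a2, b2, c2⟩ := h.swap.one hv hu h4 hc he
  obtain ⟨r3, a3, b3, c3⟩ := h.rot.one (E.mul_mem hu hv) hu h4 hc he
  have hs := h.cnt_sum hu hv h4
  rw [he] at hs
  have he7 : e < 7 := by
    by_contra hlt
    have d1 := num0 (not_lt.1 hlt) a1 c1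
    have d2 := num0 (not_lt.1 hlt) a2 c2
    have d3 := num0 (not_lt.1 hlt) a3 c3
    have d4 : (32 : ℤ) ∣ 2 ^ e := pow_dvd_pow 2 (show 5 ≤ e by omega)
    have hs' : (cnt E u : ℤ) + cnt E v + cnt E (u * v) + 4 = 2 ^ e := by exact_mod_cast hs
    generalize (2 : ℤ) ^ e = n at *
    omega
  have : 2 ^ e ≤ 2 ^ 6 := Nat.pow_le_pow_right (by norm_num) (by omega)
  exact mem_sols he7 (num1 e he7 r1 (by omega) _ (by omega) a1 b1 (by omega) c1)
    (num1 e he7 r2 (by omega) _ (by omega) a2 b2 (by omega) c2)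
    (num1 e he7 r3 (by omega) _ (by omega) a3 b3 (by omega) c3) hs

end Four

end Cfsg.Lib.ThreeInv
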